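import Mathlib
import Cfsg.Agent.Leech.OctadCentralizer

set_option autoImplicit false

/-! Evaluation of words in explicit isometries of the lattice on lists of coordinates. -/

namespace CfsgLib.SuzSection

open Cfsg CfsgLib.Leech
open scoped Pointwise

/-- The atoms. -/
inductive Atom
  | g (k : Fin 7)
  | f (b : Fin 32) (n : Fin 16)
  | e
  | m
  | h

/-- The bits of a number below 32. -/
def bits5 (b : Fin 32) : Fin 5 → ZMod 2 := fun k => if (b : ℕ).testBit k then 1 else 0

/-- The table of a permutation moving the base octad. -/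
def hTable : Array ℕ := #[22, 7, 11, 10, 19, 6, 8, 18, 0, 20, 15, 16, 13, 3, 4, 17, 23, 12, 14, 1, 2, 5, 21, 9]

/-- Its inverse table. -/
def hTableInv : Array ℕ := #[8, 19, 20, 13, 14, 21, 5, 1, 6, 23, 3, 2, 17, 12, 18, 10, 11, 15, 7, 4, 9, 22, 0, 16]

theorem hTable_ok :
    (∀ p, tableFun hTable (tableFun hTableInv p) = p) ∧
    (∀ p, tableFun hTableInv (tableFun hTable p) = p) ∧
    ∀ t s : ZMod 23, (∑ p, qrTab s p * qrTab t (tableFun hTable p)) = (0 : ZMod 2) ∧
      (∑ p, qrTab t (tableFun hTable p)) = (0 : ZMod 2) := by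
  decide +kernel

/-- The permutation. -/
def hPerm : M24 :=
  ⟨⟨tableFun hTableInv, tableFun hTable, hTable_ok.1, hTable_ok.2.1⟩, by
    refine perm_mem_M24 _ fun t => (mem_code_iff _).2 ⟨fun s => ?_, ?_⟩
    · have := (hTable_ok.2.2 t s).1
      simp only [qrTab_eq] at this
      rw [dot₂_apply]; exact this
    · have := (hTable_ok.2.2 t 0).2
      simp only [qrTab_eq] at this
      rw [dot₂_apply]; simp only [Pi.one_apply, one_mul]; exact this⟩

/-- The isometry of an atom. -/
noncomputable def Atom.val : Atom → Co0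
  | .g k => (gen k : Co0)
  | .f b n => fixElt (bits5 b, n)
  | .e => epsOct
  | .m => negOne
  | .h => permHom hPerm

/-- The product of a word. -/
noncomputable def wordVal (w : List Atom) : Co0 := (w.map Atom.val).prod

theorem wordVal_nil : wordVal [] = 1 := rfl

theorem wordVal_cons (x : Atom) (w : List Atom) : wordVal (x :: w) = x.val * wordVal w := rfl

theorem wordVal_append (v w : List Atom) : wordVal (v ++ w) = wordVal v * wordVal w := by
  simp [wordVal]

/-- Coordinates as a list. -/
def freeze (x : GolayPt → ℤ) : List ℤ := (List.range 24).map fun n => x (idxPt n)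

theorem pt_roundtrip : ∀ p : GolayPt, ptIdx p < 24 ∧ idxPt (ptIdx p) = p := by decide +kernel

theorem idx_roundtrip : ∀ n : Fin 24, ptIdx (idxPt n) = (n : ℕ) := by decide +kernel

theorem freeze_getD (x : GolayPt → ℤ) (n : ℕ) (h : n < 24) : (freeze x).getD n 0 = x (idxPt n) := by
  simp [freeze, h]

theorem freeze_injective : Function.Injective freeze := fun x y e => funext fun p => by
  have := congrArg (fun l => l.getD (ptIdx p) 0) e
  simp only [freeze_getD _ _ (pt_roundtrip p).1, (pt_roundtrip p).2] at this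
  exact this

/-- A signed gather. -/
def gather (T : List ℕ) (mask : ℕ) (l : List ℤ) : List ℤ :=
  (List.range 24).map fun n => if mask.testBit n then -(l.getD (T.getD n 0) 0) else l.getD (T.getD n 0) 0

/-- The identity table. -/
def idT : List ℕ := [0, 1, 2, 3, 4, 5, 6, 7, 8, 9, 10, 11, 12, 13, 14, 15, 16, 17, 18, 19, 20, 21, 22, 23]

/-- The sign masks of the combinations of outer words. -/
def combMask : List ℕ := [0, 6889680, 4038912, 5538256, 5350928, 3704512, 7079696, 337856, 7612992, 1903248, 4819776, 2141072, 2460752, 5024896, 1584464, 7409024, 8241104, 1351424, 4202192, 2702848, 2890176, 4536592, 1161408, 7903248, 628112, 6337856, 3421328, 6100032, 5780352, 3216208, 6656640, 832080]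

/-- The tetrads. -/
def tetList : List (List ℕ) :=
  [[0, 1, 2, 23], [3, 5, 14, 17], [8, 11, 12, 18], [9, 10, 15, 20], [6, 7, 19, 21], [4, 13, 16, 22]]

/-- The tetrad numbers. -/
def tetNum : List ℕ := [0, 0, 0, 1, 5, 1, 4, 4, 2, 3, 3, 2, 2, 5, 1, 3, 5, 1, 2, 4, 3, 4, 5, 0]

/-- Conway's map on lists. -/
def xiList (l : List ℤ) : List ℤ :=
  (List.range 24).map fun n =>
    if tetNum.getD n 0 = 0 then
      ((tetList.getD (tetNum.getD n 0) []).map fun i => l.getD i 0).sum / 2 - l.getD n 0
    else l.getD n 0 - ((tetList.getD (tetNum.getD n 0) []).map fun i => l.getD i 0).sum / 2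

/-- An atom on lists. -/
def step : Atom → List ℤ → List ℤ
  | .g ⟨0, _⟩ => xiList
  | .g ⟨6, _⟩ => gather idT 8499969
  | .g ⟨k + 1, _⟩ => gather ((spreadTables (Fin.ofNat 5 k)).1.2.toList) 0
  | .f b n => gather (transTable n).toList (combMask.getD b 0)
  | .e => gather idT 8536111
  | .m => gather idT 16777215
  | .h => gather hTable.toList 0

theorem gather_ok (T : List ℕ) (mask : ℕ) (v : GolayPt → ℤ) (F : GolayPt → GolayPt) (c : GolayPt → ZMod 2)
    (hT : ∀ n : Fin 24, T.getD n 0 < 24 ∧ idxPt (T.getD n 0) = F (idxPt n))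
    (hm : ∀ n : Fin 24, mask.testBit n = true ↔ c (idxPt n) ≠ 0) :
    gather T mask (freeze v) = freeze fun i => if c i = 0 then v (F i) else -v (F i) := by
  refine List.map_congr_left fun n hn => ?_
  rw [List.mem_range] at hn
  rw [freeze_getD _ _ (hT ⟨n, hn⟩).1, (hT ⟨n, hn⟩).2]
  dsimp only
  by_cases h : c (idxPt n) = 0
  · rw [if_pos h, if_neg (by rw [hm ⟨n, hn⟩]; exact not_not.2 h)]
  · rw [if_neg h, if_pos ((hm ⟨n, hn⟩).2 h)]

theorem id_table_ok : ∀ n : Fin 24, idT.getD n 0 < 24 ∧ idxPt (idT.getD n 0) = id (idxPt n) := by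
  decide +kernel

theorem sign_masks_ok : ∀ n : Fin 24,
    ((8499969 : ℕ).testBit n = true ↔ inLiftWord (some 0) (idxPt n) ≠ 0) ∧
    ((8536111 : ℕ).testBit n = true ↔ baseOctad (idxPt n) ≠ 0) ∧
    (16777215 : ℕ).testBit n = true ∧ (0 : ℕ).testBit n = false ∧
    ∀ b : Fin 32, (combMask.getD b 0).testBit n = true ↔ outCombo (bits5 b) (idxPt n) ≠ 0 := by
  decide +kernel

theorem tables_ok : ∀ n : Fin 24,
    (∀ k : Fin 5, (spreadTables k).1.2.toList.getD n 0 < 24 ∧
      idxPt ((spreadTables k).1.2.toList.getD n 0) = tableFun (spreadTables k).1.2 (idxPt n)) ∧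
    (∀ k : Fin 16, (transTable k).toList.getD n 0 < 24 ∧
      idxPt ((transTable k).toList.getD n 0) = tableFun (transTable k) (idxPt n)) ∧
    (hTable.toList.getD n 0 < 24 ∧ idxPt (hTable.toList.getD n 0) = tableFun hTable (idxPt n)) := by
  decide +kernel

/-- The tetrad points. -/
def tetPt (k : Fin 6) : List GolayPt := (tetList.getD k []).map idxPt

theorem tetrad_ok : (∀ k : Fin 6, (tetPt k).Nodup ∧ Finset.univ.filter (fun i => tetrad i = k) =
      (tetPt k).toFinset ∧ ∀ i ∈ tetList.getD k [], i < 24) ∧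
    ∀ n : Fin 24, tetNum.getD n 0 = (tetrad (idxPt n) : ℕ) := by
  decide +kernel

theorem xiList_ok (v : GolayPt → ℤ) : xiList (freeze v) = freeze (xiFun v) := by
  refine List.map_congr_left fun n hn => ?_
  rw [List.mem_range] at hn
  rw [tetrad_ok.2 ⟨n, hn⟩, freeze_getD _ _ hn]
  set k := tetrad (idxPt n) with hk
  have hs : ((tetList.getD k []).map fun i => (freeze v).getD i 0).sum = tetSum v k := by
    rw [tetSum, (tetrad_ok.1 k).2.1, List.sum_toFinset _ (tetrad_ok.1 k).1, tetPt, List.map_map]
    exact congrArg List.sum (List.map_congr_left fun i hi => freeze_getD _ _ ((tetrad_ok.1 k).2.2 i hi))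
  rw [hs, xiFun, ← hk]
  simp only [Fin.val_eq_zero_iff]

theorem step_ok (x : Atom) (v : leechLattice) :
    step x (freeze (v : GolayPt → ℤ)) = freeze ((x.val • v : leechLattice) : GolayPt → ℤ) := by
  have h0 : ∀ n : Fin 24, (0 : ℕ).testBit n = true ↔ (fun _ : GolayPt => (0 : ZMod 2)) (idxPt n) ≠ 0 :=
    fun n => by simp
  cases x with
  | g k =>
    show step (.g k) _ = freeze ((((gen k : Co0) • v : leechLattice)) : GolayPt → ℤ)
    rw [gen_apply]
    fin_cases k
    · exact xiList_ok _
    pick_goal 6
    · exact (gather_ok _ _ _ id _ id_table_ok fun n => (sign_masks_ok n).1).trans rfl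
    all_goals
      refine (gather_ok _ _ _ _ (fun _ => 0) (fun n => (tables_ok n).1 _) h0).trans ?_
      simp
      rfl
  | f b n =>
    refine (gather_ok _ _ _ _ _ (fun i => (tables_ok i).2.1 n) fun i => (sign_masks_ok i).2.2.2.2 b).trans
      (congrArg freeze (funext fun i => ?_))
    show _ = ((fixElt (bits5 b, n) • v : leechLattice) : GolayPt → ℤ) i
    rw [fixElt, monomial_apply]
    rfl
  | e =>
    refine (gather_ok _ _ _ id _ id_table_ok fun n => (sign_masks_ok n).2.1).trans
      (congrArg freeze (funext fun i => ?_))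
    show _ = ((epsOct • v : leechLattice) : GolayPt → ℤ) i
    rw [epsOct, signs_apply]
    rfl
  | m =>
    refine (gather_ok _ _ _ id (fun _ => 1) id_table_ok fun n => by simp [(sign_masks_ok n).2.2.1]).trans
      (congrArg freeze (funext fun i => ?_))
    show _ = ((negOne • v : leechLattice) : GolayPt → ℤ) i
    rw [negOne_smul]
    simp
  | h =>
    refine (gather_ok _ _ _ _ (fun _ => 0) (fun i => (tables_ok i).2.2) h0).trans
      (congrArg freeze (funext fun i => ?_))
    show _ = ((permHom hPerm • v : leechLattice) : GolayPt → ℤ) i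
    rw [permHom_apply]
    simp
    rfl

/-- The image of a list under a word. -/
def evalW : List Atom → List ℤ → List ℤ
  | [], l => l
  | x :: w, l => step x (evalW w l)

theorem evalW_ok (w : List Atom) (v : leechLattice) :
    evalW w (freeze (v : GolayPt → ℤ)) = freeze ((wordVal w • v : leechLattice) : GolayPt → ℤ) := by
  induction w with
  | nil => rw [evalW, wordVal_nil, one_smul]
  | cons x w ih => rw [evalW, ih, step_ok, wordVal_cons, mul_smul]

/-- An axis as a list. -/
def axisList (j : ℕ) : List ℤ := (List.range 24).map fun n => if n = j then 8 else 0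

/-- Comparison of two words. -/
def sameWord (v w : List Atom) : Bool :=
  (List.range 24).all fun j => evalW v (axisList j) == evalW w (axisList j)

theorem axisList_ok (p : GolayPt) : freeze (axisVec p : leechLattice).1 = axisList (ptIdx p) := by
  refine List.map_congr_left fun n hn => ?_
  rw [List.mem_range] at hn
  show single p 8 (idxPt n) = _
  rw [single]
  refine if_congr ⟨fun e => ?_, fun e => ?_⟩ rfl rfl
  · rw [← e, idx_roundtrip ⟨n, hn⟩]
  · rw [e, (pt_roundtrip p).2]

theorem sameWord_iff (v w : List Atom) : sameWord v w = true ↔ wordVal v = wordVal w := by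
  simp only [sameWord, List.all_eq_true, List.mem_range, beq_iff_eq]
  constructor
  · intro h
    refine co0_ext fun p => Subtype.ext (freeze_injective ?_)
    rw [← evalW_ok, ← evalW_ok, axisList_ok]
    exact h _ (pt_roundtrip p).1
  · intro e j hj
    have h := axisList_ok (idxPt j)
    rw [idx_roundtrip ⟨j, hj⟩] at h
    rw [← h, evalW_ok, evalW_ok, e]

end CfsgLib.SuzSection
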