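import Mathlib
import Cfsg.Agent.SuzSection97.Eval

set_option autoImplicit false

/-! The words of an element of order 3, of elements centralising it, and the relations between them. -/

namespace CfsgLib.SuzSection

open Cfsg CfsgLib.Leech

/-- The word of the element of order 3. -/
def aW : List Atom := [.g 0, .g 6, .g 5, .g 4, .g 0, .g 6, .g 5, .g 4, .g 0, .g 6, .g 5, .g 4, .g 0, .g 6, .g 5, .g 4]

/-- The basis atoms of the centralised part of `octFix`. -/
def bW : Fin 6 → Atom := ![.f 2 0, .f 12 0, .f 5 2, .f 2 4, .f 11 1, .f 10 12]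

/-- Two generators of the stabiliser of the involution. -/
def kW : Fin 2 → List Atom := ![[.g 3, .g 3, .g 1, .g 4, .g 3], [.g 0, .g 1, .g 1, .g 6, .g 5]]

/-- The images of the basis under the generators. -/
def kImg : Fin 2 → Fin 6 → Fin 32 × Fin 16 :=
  ![![(14, 0), (18, 0), (20, 8), (14, 7), (8, 12), (29, 13)],
    ![(22, 8), (25, 2), (12, 0), (1, 14), (10, 12), (4, 15)]]

/-- An element moving the involution. -/
def gW : List Atom := [.h, .g 1, .g 5, .g 3, .f 0 9]

/-- A conjugate of the involution outside the extraspecial group. -/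
def xW : List Atom := [.f 10 0, .g 2, .g 2, .g 2, .g 6, .g 2, .g 2, .g 6, .g 2, .g 2]

/-- The representatives of the part of `octFix` not centralised. -/
def rW : Fin 3 → Atom := ![.f 1 0, .f 4 0, .f 5 0]

theorem order_cube : sameWord (aW ++ (aW ++ aW)) [] = true := by decide +kernel

theorem order_zc : sameWord [.f 16 0] [.e, .m] = true := by decide +kernel

theorem order_checks : sameWord (aW ++ (aW ++ aW)) [] = true ∧ sameWord [.f 16 0] [.e, .m] = true :=
  ⟨order_cube, order_zc⟩

theorem basis_check0 : sameWord (aW ++ [bW 0]) ([bW 0] ++ aW) = true := by decide +kernel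

theorem basis_check1 : sameWord (aW ++ [bW 1]) ([bW 1] ++ aW) = true := by decide +kernel

theorem basis_check2 : sameWord (aW ++ [bW 2]) ([bW 2] ++ aW) = true := by decide +kernel

theorem basis_check3 : sameWord (aW ++ [bW 3]) ([bW 3] ++ aW) = true := by decide +kernel

theorem basis_check4 : sameWord (aW ++ [bW 4]) ([bW 4] ++ aW) = true := by decide +kernel

theorem basis_check5 : sameWord (aW ++ [bW 5]) ([bW 5] ++ aW) = true := by decide +kernel

theorem basis_checks : ∀ j, sameWord (aW ++ [bW j]) ([bW j] ++ aW) = true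
  | 0 => basis_check0
  | 1 => basis_check1
  | 2 => basis_check2
  | 3 => basis_check3
  | 4 => basis_check4
  | 5 => basis_check5

theorem rep_checks : ∀ j, sameWord (aW ++ [rW j]) ([rW j] ++ aW) = false := by
  decide +kernel

theorem gen_comm0 : sameWord (aW ++ kW 0) (kW 0 ++ aW) = true := by decide +kernel

theorem gen_conj0 : ∀ j, sameWord (kW 0 ++ [bW j]) ([.f (kImg 0 j).1 (kImg 0 j).2] ++ kW 0) = true := by
  decide +kernel

theorem gen_comm1 : sameWord (aW ++ kW 1) (kW 1 ++ aW) = true := by decide +kernel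

theorem gen_conj1 : ∀ j, sameWord (kW 1 ++ [bW j]) ([.f (kImg 1 j).1 (kImg 1 j).2] ++ kW 1) = true := by
  decide +kernel

theorem gen_checks : ∀ i, sameWord (aW ++ kW i) (kW i ++ aW) = true ∧
    ∀ j, sameWord (kW i ++ [bW j]) ([.f (kImg i j).1 (kImg i j).2] ++ kW i) = true
  | 0 => ⟨gen_comm0, gen_conj0⟩
  | 1 => ⟨gen_comm1, gen_conj1⟩

theorem move_check0 : sameWord (aW ++ gW) (gW ++ aW) = true := by decide +kernel

theorem move_check1 : sameWord (aW ++ xW) (xW ++ aW) = true := by decide +kernel

theorem move_check2 : sameWord (gW ++ [.e]) ([bW 0] ++ gW) = true := by decide +kernel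

theorem move_check3 : sameWord (gW ++ (gW ++ (gW ++ [.e]))) (xW ++ (gW ++ (gW ++ gW))) = true := by decide +kernel

theorem move_checks : sameWord (aW ++ gW) (gW ++ aW) = true ∧
    sameWord (aW ++ xW) (xW ++ aW) = true ∧
    sameWord (gW ++ [.e]) ([bW 0] ++ gW) = true ∧
    sameWord (gW ++ (gW ++ (gW ++ [.e]))) (xW ++ (gW ++ (gW ++ gW))) = true :=
  ⟨move_check0, move_check1, move_check2, move_check3⟩

theorem ne_checks : sameWord [.e] [] = false ∧ sameWord [.e] [.m] = false ∧
    sameWord [bW 0] [.e] = false ∧ sameWord [bW 0] [.e, .m] = false ∧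
    sameWord (xW ++ [bW 2]) ([bW 2] ++ xW) = false ∧
    sameWord (xW ++ [bW 2]) ([bW 2, .f 16 0] ++ xW) = false := by
  decide +kernel

end CfsgLib.SuzSection
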