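import Mathlib
import Cfsg.Agent.SuzSection97.Words

set_option autoImplicit false
set_option linter.style.haveILetI false

/-! The part of the extraspecial group centralised by the element of order 3. -/

namespace CfsgLib.SuzSection

open Cfsg CfsgLib.Leech
open scoped Pointwise

/-- Vectors of length 6. -/
abbrev V6 : Type := (Fin 2 ⊕ Fin 2) ⊕ Fin 2 → ZMod 2

/-- The elliptic form. -/
abbrev q6 : V6 → ZMod 2 := Cfsg.quadFormMinus 2 (ZMod 2) 1 1

/-- The position of a coordinate. -/
def pos6 : (Fin 2 ⊕ Fin 2) ⊕ Fin 2 → Fin 6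
  | .inl (.inl i) => ⟨i, by omega⟩
  | .inl (.inr i) => ⟨i + 2, by omega⟩
  | .inr i => ⟨i + 4, by omega⟩

/-- The vector of a bit mask. -/
def vec6 (v : ℕ) : V6 := fun j => if v.testBit (pos6 j) then 1 else 0

/-- Vectors of length 8. -/
abbrev V8 : Type := Fin 8 → ZMod 2

/-- The sum of two numbers below 16 without carries. -/
def nimAdd (n m : Fin 16) : Fin 16 := Fin.ofNat 16 ((n : ℕ) ^^^ (m : ℕ))

/-- The coordinates of an element of `octFix` modulo its centre. -/
def code8 (x : (Fin 5 → ZMod 2) × Fin 16) : V8 := fun i =>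
  if h : (i : ℕ) < 4 then x.1 ⟨i, by omega⟩ else if (x.2 : ℕ).testBit ((i : ℕ) - 4) then 1 else 0

/-- A linear functional given by a mask. -/
def dot8 (m : ℕ) (c : V8) : ZMod 2 := ∑ i : Fin 8, if m.testBit i then c i else 0

theorem dot8_add (m : ℕ) (c d : V8) : dot8 m (c + d) = dot8 m c + dot8 m d := by
  rw [dot8, dot8, dot8, ← Finset.sum_add_distrib]
  exact Finset.sum_congr rfl fun i _ => by split_ifs <;> simp

/-- The coordinates on the centralised part. -/
def pi8 (c : V8) : V6 := fun j => dot8 (![82, 152, 32, 192, 16, 128] (pos6 j)) c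

theorem pi8_add (c d : V8) : pi8 (c + d) = pi8 c + pi8 d := funext fun _ => dot8_add _ c d

/-- The equations of the centralised part. -/
def InQ (c : V8) : Prop := dot8 49 c = 0 ∧ dot8 188 c = 0

instance (c : V8) : Decidable (InQ c) := inferInstanceAs (Decidable (_ ∧ _))

/-- The parameters of the basis. -/
def bPar : Fin 6 → Fin 32 × Fin 16 := ![(2, 0), (12, 0), (5, 2), (2, 4), (11, 1), (10, 12)]

/-- The parameters of the representatives. -/
def rPar : Fin 3 → Fin 32 × Fin 16 := ![(1, 0), (4, 0), (5, 0)]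

/-- The code of parameters. -/
def parCode (p : Fin 32 × Fin 16) : V8 := code8 (bits5 p.1, p.2)

theorem par_ok : (∀ j, bW j = .f (bPar j).1 (bPar j).2) ∧ ∀ r, rW r = .f (rPar r).1 (rPar r).2 := by
  refine ⟨fun j => ?_, fun r => ?_⟩
  · fin_cases j <;> rfl
  · fin_cases r <;> rfl

theorem code_facts :
    (∀ c : V8, InQ c → c = ∑ j, (pi8 c j).val • parCode (bPar (pos6 j))) ∧
    (∀ c : V8, InQ c ∨ ∃ r, InQ (c + parCode (rPar r))) ∧
    (∀ j, InQ (parCode (bPar j)) ∧ pi8 (parCode (bPar j)) = vec6 (2 ^ (j : ℕ))) ∧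
    (∀ c : V8, InQ c → pi8 c = 0 → c = 0) ∧
    (∀ i j, InQ (parCode (kImg i j))) ∧
    (∀ j, pi8 (parCode (kImg 0 j)) = vec6 (![3, 1, 42, 29, 33, 50] j)) ∧
    (∀ j, pi8 (parCode (kImg 1 j)) = vec6 (![43, 6, 2, 39, 32, 52] j)) := by
  decide +kernel

theorem pi8_onto : ∀ v : V6, pi8 (∑ j, (v j).val • parCode (bPar (pos6 j))) = v := by
  decide +kernel

theorem code_zero : ∀ (b : Fin 5 → ZMod 2) (n : Fin 16),
    code8 (b, n) = 0 → n = 0 ∧ (b = 0 ∨ b = Pi.single 4 1) := by
  decide +kernel

theorem nim_bits : ∀ (n m : Fin 16) (i : Fin 8), ¬ (i : ℕ) < 4 →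
    (if (nimAdd n m : ℕ).testBit ((i : ℕ) - 4) then (1 : ZMod 2) else 0) =
      (if (n : ℕ).testBit ((i : ℕ) - 4) then (1 : ZMod 2) else 0) +
        if (m : ℕ).testBit ((i : ℕ) - 4) then (1 : ZMod 2) else 0 := by
  decide +kernel

theorem code_add : ∀ (b b' : Fin 5 → ZMod 2) (s : ZMod 2) (n m : Fin 16),
    code8 (b + b' + s • Pi.single 4 1, nimAdd n m) = code8 (b, n) + code8 (b', m) := by
  intro b b' s n m
  funext i
  rw [Pi.add_apply, code8, code8, code8]
  by_cases h : (i : ℕ) < 4
  · rw [dif_pos h, dif_pos h, dif_pos h]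
    simp [show (⟨(i : ℕ), by omega⟩ : Fin 5) ≠ 4 from fun e => by
      have := congrArg Fin.val e; simp at this; omega]
  · rw [dif_neg h, dif_neg h, dif_neg h]
    exact nim_bits n m i h

theorem trans_nim : ∀ (n m : Fin 16) (p : GolayPt),
    tableFun (transTable n) (tableFun (transTable m) p) = tableFun (transTable (nimAdd n m)) p := by
  decide +kernel

theorem transM_mul (n m : Fin 16) : transM n * transM m = transM (nimAdd n m) :=
  Subtype.ext (Equiv.ext fun p => trans_nim n m p)

theorem square_facts : ∀ (b : Fin 5 → ZMod 2) (n : Fin 16), InQ (code8 (b, n)) →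
    ∀ i, outCombo b i + outCombo b (tableFun (transTable n) i) =
      if q6 (pi8 (code8 (b, n))) = 0 then 0 else outWord i := by
  decide +kernel

/-- The element of order 3. -/
noncomputable def aElt : Co0 := wordVal aW

/-- The central involution of `octFix`. -/
noncomputable def zc : Co0 := signs outWord outWord_mem

theorem outCombo_e : outCombo (Pi.single 4 1) = outWord := outCombo_facts.2.2.2

theorem fixElt_zero : fixElt (0, 0) = 1 := by
  have hτ : transM 0 = 1 := Subtype.ext (Equiv.ext fun p => by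
    show tableFun (transTable 0) p = p
    revert p; decide +kernel)
  rw [fixElt, monomial, hτ, map_one, mul_one,
    signs_congr _ (Submodule.zero_mem _) (show outCombo 0 = 0 from outCombo_facts.2.2.1), signs_zero]

theorem fixElt_e : fixElt (Pi.single 4 1, 0) = zc := by
  have hτ : transM 0 = 1 := Subtype.ext (Equiv.ext fun p => by
    show tableFun (transTable 0) p = p
    revert p; decide +kernel)
  rw [fixElt, monomial, hτ, map_one, mul_one]
  exact signs_congr _ outWord_mem outCombo_e

theorem fix_mul (x y : (Fin 5 → ZMod 2) × Fin 16) :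
    ∃ s : ZMod 2, fixElt x * fixElt y =
      fixElt (x.1 + y.1 + s • Pi.single 4 1, nimAdd x.2 y.2) := by
  have hadd : ∀ b b' : Fin 5 → ZMod 2, outCombo (b + b') = outCombo b + outCombo b' := fun b b' =>
    funext fun i => by simp [outCombo, add_mul, Finset.sum_add_distrib]
  have key : ∃ s : ZMod 2, ∀ i, outCombo y.1 ((transM x.2).1.symm i) =
      outCombo y.1 i + outCombo (s • Pi.single 4 1) i := by
    have h2 : ∀ a b c : ZMod 2, a + b = c → b = a + c := by decide
    rcases trans_cert.2.1 x.2 y.1 with h | h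
    · refine ⟨0, fun i => ?_⟩
      rw [zero_smul, outCombo_facts.2.2.1]
      exact h2 _ _ _ (h i)
    · refine ⟨1, fun i => ?_⟩
      rw [one_smul, outCombo_e]
      exact h2 _ _ _ (h i)
  obtain ⟨s, hs⟩ := key
  refine ⟨s, ?_⟩
  rw [fixElt, fixElt, fixElt, monomial_mul]
  refine congrArg monomial (Prod.ext (Subtype.ext (funext fun i => ?_)) (transM_mul _ _))
  show outCombo x.1 i + outCombo y.1 ((transM x.2).1.symm i) =
    outCombo (x.1 + y.1 + s • Pi.single 4 1) i
  rw [hs i, hadd, hadd]
  simp only [Pi.add_apply, add_assoc]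

/-- The parameters of an element of `octFix`. -/
noncomputable def coord (g : octFix) : (Fin 5 → ZMod 2) × Fin 16 := (fixElt_surjective g.2).choose

theorem fixElt_coord (g : octFix) : fixElt (coord g) = (g : Co0) := (fixElt_surjective g.2).choose_spec

/-- The code of an element of `octFix`. -/
noncomputable def code (g : octFix) : V8 := code8 (coord g)

theorem code_fixElt {x : (Fin 5 → ZMod 2) × Fin 16} {g : octFix} (h : fixElt x = (g : Co0)) :
    code g = code8 x := by
  rw [code, fixElt_injective ((fixElt_coord g).trans h.symm)]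

theorem code_mul (g h : octFix) : code (g * h) = code g + code h := by
  obtain ⟨s, hs⟩ := fix_mul (coord g) (coord h)
  rw [fixElt_coord, fixElt_coord] at hs
  rw [code_fixElt hs.symm, code_add]
  rfl

theorem code_one : code 1 = 0 := by
  have h := code_mul 1 1
  rw [one_mul] at h
  exact left_eq_add.1 h

theorem code_inv (g : octFix) : code g⁻¹ = code g := by
  have h := code_mul g⁻¹ g
  rw [inv_mul_cancel, code_one] at h
  exact CharTwo.add_eq_zero.1 h.symm

theorem zc_mem : zc ∈ octFix := outWord_octFix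

theorem code_zc : code ⟨zc, zc_mem⟩ = 0 := by
  rw [code_fixElt (x := (Pi.single 4 1, 0)) fixElt_e]
  decide +kernel

theorem code_eq {g h : octFix} (e : code g = code h) : (h : Co0) = g ∨ (h : Co0) = g * zc := by
  have h0 : code (g⁻¹ * h) = 0 := by
    rw [code_mul, code_inv, e]
    exact CharTwo.add_self_eq_zero _
  have hx : fixElt (coord (g⁻¹ * h)) = (g : Co0)⁻¹ * h := fixElt_coord _
  change code8 (coord (g⁻¹ * h)) = 0 at h0
  generalize coord (g⁻¹ * h) = x at h0 hx
  obtain ⟨b, n⟩ := x
  obtain ⟨hn, hb⟩ := code_zero _ _ h0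
  subst hn
  rcases hb with rfl | rfl
  · rw [fixElt_zero] at hx
    exact Or.inl (inv_mul_eq_one.1 hx.symm).symm
  · rw [fixElt_e] at hx
    exact Or.inr (inv_mul_eq_iff_eq_mul.1 hx.symm)

theorem mem_octCent_atom (x : Atom) (h : x ≠ .h) : x.val ∈ octCent := by
  cases x with
  | g k => exact (gen k).2
  | f b n => exact octFix_le (fixElt_mem _)
  | e => exact Subgroup.mem_centralizer_singleton_iff.2 rfl
  | m => exact negOne_octCent
  | h => exact absurd rfl h

theorem wordVal_octCent : ∀ w : List Atom, (∀ x ∈ w, x ≠ .h) → wordVal w ∈ octCent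
  | [], _ => one_mem _
  | x :: w, h => by
    rw [wordVal_cons]
    exact mul_mem (mem_octCent_atom x (h x (List.mem_cons_self)))
      (wordVal_octCent w fun y hy => h y (List.mem_cons_of_mem _ hy))

theorem wordVal_single (x : Atom) : wordVal [x] = x.val := by simp [wordVal]

theorem comm_of_check {v w u : List Atom} (h : sameWord (v ++ w) (u ++ v) = true) :
    wordVal v * wordVal w = wordVal u * wordVal v := by
  rw [← wordVal_append, ← wordVal_append]; exact (sameWord_iff _ _).1 h

theorem ne_of_check {v w : List Atom} (h : sameWord v w = false) : wordVal v ≠ wordVal w := fun e => by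
  rw [(sameWord_iff v w).2 e] at h; exact absurd h (by decide)

theorem aElt_pow_three : aElt ^ 3 = 1 := by
  have h := (sameWord_iff _ _).1 order_checks.1
  rw [wordVal_append, wordVal_append, wordVal_nil] at h
  rw [pow_three]; exact h

theorem aElt_mem : aElt ∈ octCent := wordVal_octCent _ (by
  simp [aW])

theorem zc_eq : zc = epsOct * negOne := by
  have h := (sameWord_iff _ _).1 order_checks.2
  rw [wordVal_single, wordVal_cons, wordVal_single] at h
  rw [← fixElt_e]
  refine Eq.trans (congrArg fixElt (Prod.ext ?_ rfl)) h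
  decide +kernel

theorem zc_central {g : Co0} (hg : g ∈ octCent) : g * zc = zc * g := by
  rw [zc_eq, ← mul_assoc, Subgroup.mem_centralizer_singleton_iff.1 hg, mul_assoc,
    Subgroup.mem_center_iff.1 negOne_central g, mul_assoc]

theorem aElt_zc : aElt * zc = zc * aElt := zc_central aElt_mem

/-- The centralised part of `octFix`. -/
noncomputable abbrev Qa : Subgroup Co0 := octFix ⊓ Subgroup.centralizer ({aElt} : Set Co0)

theorem zc_Qa : zc ∈ Qa :=
  ⟨zc_mem, Subgroup.mem_centralizer_singleton_iff.2 aElt_zc.symm⟩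

theorem fix_f (p : Fin 32 × Fin 16) : (Atom.f p.1 p.2).val ∈ octFix := fixElt_mem _

theorem code_f (p : Fin 32 × Fin 16) : code ⟨_, fix_f p⟩ = parCode p := code_fixElt rfl

theorem basis_Qa (j : Fin 6) : (Atom.f (bPar j).1 (bPar j).2).val ∈ Qa := by
  refine ⟨fix_f _, Subgroup.mem_centralizer_singleton_iff.2 ?_⟩
  have h := comm_of_check (basis_checks j)
  rw [wordVal_single, par_ok.1 j] at h
  exact h.symm

/-- The codes of the centralised part. -/
def qaCodes : AddSubgroup V8 where
  carrier := {c | ∃ g : octFix, (g : Co0) ∈ Qa ∧ code g = c}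
  zero_mem' := ⟨1, one_mem _, code_one⟩
  add_mem' := by
    rintro _ _ ⟨g, hg, rfl⟩ ⟨h, hh, rfl⟩
    exact ⟨g * h, mul_mem hg hh, code_mul g h⟩
  neg_mem' := by
    rintro _ ⟨g, hg, rfl⟩
    exact ⟨g⁻¹, inv_mem hg, (code_inv g).trans (funext fun i => (CharTwo.neg_eq _).symm)⟩

theorem inQ_mem {c : V8} (hc : InQ c) : c ∈ qaCodes := by
  rw [code_facts.1 c hc]
  exact sum_mem fun j _ => nsmul_mem (show parCode (bPar (pos6 j)) ∈ qaCodes from ⟨⟨_, fix_f _⟩, basis_Qa _, code_f _⟩) _

theorem mem_Qa_of_inQ {g : octFix} (h : InQ (code g)) : (g : Co0) ∈ Qa := by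
  obtain ⟨y, hy, e⟩ := inQ_mem h
  rcases code_eq e with r | r <;> rw [r]
  · exact hy
  · exact mul_mem hy zc_Qa

theorem rep_not_Qa (r : Fin 3) : (Atom.f (rPar r).1 (rPar r).2).val ∉ Qa := fun hm => by
  refine ne_of_check (rep_checks r) ?_
  rw [wordVal_append, wordVal_append, par_ok.2 r, wordVal_single]
  exact (Subgroup.mem_centralizer_singleton_iff.1 hm.2).symm

theorem inQ_of_mem {g : octFix} (h : (g : Co0) ∈ Qa) : InQ (code g) := by
  rcases code_facts.2.1 (code g) with hc | ⟨r, hr⟩
  · exact hc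
  exfalso
  let y : octFix := ⟨_, fix_f (rPar r)⟩
  have hy : code y = parCode (rPar r) := code_f _
  have hm : ((g * y : octFix) : Co0) ∈ Qa := mem_Qa_of_inQ (by rw [code_mul, hy]; exact hr)
  rw [Subgroup.coe_mul, Subgroup.mul_mem_cancel_left Qa h] at hm
  exact rep_not_Qa r hm

/-- An element of the centralised part as an element of `octFix`. -/
noncomputable def qfix (g : Qa) : octFix := ⟨g.1, g.2.1⟩

/-- Coordinates on the centralised part. -/
noncomputable def piQ (g : Qa) : V6 := pi8 (code (qfix g))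

theorem piQ_mul (g h : Qa) : piQ (g * h) = piQ g + piQ h := by
  rw [piQ, piQ, piQ, ← pi8_add, ← code_mul]; rfl

theorem piQ_eq {g h : Qa} (e : piQ g = piQ h) : (h : Co0) = g ∨ (h : Co0) = g * zc := by
  refine code_eq (g := qfix g) (h := qfix h) ?_
  have h1 : InQ (code (qfix g⁻¹ * qfix h)) := inQ_of_mem (g := qfix g⁻¹ * qfix h) (g⁻¹ * h).2
  have h2 : pi8 (code (qfix g⁻¹ * qfix h)) = 0 := by
    rw [code_mul, show qfix g⁻¹ = (qfix g)⁻¹ from rfl, code_inv, pi8_add]
    show piQ g + piQ h = 0
    rw [e]; exact funext fun i => CharTwo.add_self_eq_zero _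
  have h3 := code_facts.2.2.2.1 _ h1 h2
  rw [code_mul, show qfix g⁻¹ = (qfix g)⁻¹ from rfl, code_inv] at h3
  exact CharTwo.add_eq_zero.1 h3

theorem piQ_zc : piQ ⟨zc, zc_Qa⟩ = 0 := by
  show pi8 (code ⟨zc, zc_mem⟩) = 0
  rw [code_zc]; decide +kernel

theorem piQ_one : piQ 1 = 0 := by
  have h := piQ_mul 1 1
  rw [one_mul] at h
  exact left_eq_add.1 h

theorem piQ_surjective (v : V6) : ∃ g : Qa, piQ g = v := by
  have h : (∑ j, (v j).val • parCode (bPar (pos6 j))) ∈ qaCodes :=
    sum_mem fun j _ => nsmul_mem (show parCode (bPar (pos6 j)) ∈ qaCodes from ⟨⟨_, fix_f _⟩, basis_Qa _, code_f _⟩) _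
  obtain ⟨g, hg, e⟩ := h
  exact ⟨⟨g.1, hg⟩, by show pi8 (code g) = v; rw [e, pi8_onto]⟩

/-- The basis. -/
noncomputable def bQ (j : Fin 6) : Qa := ⟨_, basis_Qa j⟩

theorem piQ_bQ (j : Fin 6) : piQ (bQ j) = vec6 (2 ^ (j : ℕ)) := by
  show pi8 (code ⟨_, fix_f (bPar j)⟩) = _
  rw [code_f]; exact (code_facts.2.2.1 j).2

theorem square_piQ (g : Qa) : (g : Co0) * g = if q6 (piQ g) = 0 then 1 else zc := by
  have hg : (g : Co0) = fixElt (coord (qfix g)) := (fixElt_coord (qfix g)).symm
  have hsq := square_facts (coord (qfix g)).1 (coord (qfix g)).2 (inQ_of_mem (g := qfix g) g.2)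
  rw [hg, fixElt, monomial_mul]
  simp only [transM_sq]
  rw [monomial, map_one, mul_one]
  split_ifs with hq
  · rw [signs_congr _ (Submodule.zero_mem _) (funext fun i => ?_), signs_zero]
    exact (hsq i).trans (if_pos hq)
  · exact signs_congr _ outWord_mem (funext fun i => (hsq i).trans (if_neg hq))

theorem zc_ne : zc ≠ 1 := outWord_ne

theorem zc_sq : zc * zc = 1 := by
  rw [zc, signs_mul, signs_congr _ (Submodule.zero_mem _)
    (show outWord + outWord = 0 from funext fun i => CharTwo.add_self_eq_zero (outWord i)), signs_zero]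

theorem card_Qa : Nat.card Qa = 128 := by
  classical
  let f : ZMod 2 × V6 → Qa := fun p =>
    (piQ_surjective p.2).choose * if p.1 = 0 then 1 else ⟨zc, zc_Qa⟩
  have hpi : ∀ p, piQ (f p) = p.2 := fun p => by
    simp only [f, piQ_mul, (piQ_surjective p.2).choose_spec]
    split_ifs <;> simp [piQ_one, piQ_zc]
  have hb : Function.Bijective f := by
    constructor
    · rintro ⟨s, v⟩ ⟨t, w⟩ e
      have e2 : v = w := (hpi (s, v)).symm.trans ((congrArg piQ e).trans (hpi (t, w)))
      subst e2
      have h01 : ∀ z : ZMod 2, z = 0 ∨ z = 1 := by decide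
      have e3 := congrArg Subtype.val (mul_left_cancel e)
      rcases h01 s with rfl | rfl <;> rcases h01 t with rfl | rfl
      · rfl
      · exact absurd (by simpa using e3.symm) zc_ne
      · exact absurd (by simpa using e3) zc_ne
      · rfl
    · intro g
      rcases piQ_eq (piQ_surjective (piQ g)).choose_spec with e | e
      · exact ⟨(0, piQ g), Subtype.ext (by simp only [f, if_pos, mul_one]; exact e.symm)⟩
      · refine ⟨(1, piQ g), Subtype.ext ?_⟩
        simp only [f, one_ne_zero, if_false, Subgroup.coe_mul]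
        exact e.symm
  rw [← Nat.card_eq_of_bijective f hb]
  simp [Nat.card_eq_fintype_card]

end CfsgLib.SuzSection
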