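import Mathlib
import Cfsg.Agent.SuzSection97.Fix
import Cfsg.Agent.Classical.Orth.OrderStd
import Cfsg.Agent.Classical.Orth.Index

set_option autoImplicit false
set_option linter.style.haveILetI false

/-! The centraliser of the element of order 3 in the centraliser of the sign change, and its action
on the centralised part of `octFix` modulo the centre. -/

namespace CfsgLib.SuzSection

open Cfsg CfsgLib.Leech
open scoped Pointwise Matrix

/-- The centraliser in `octCent`. -/
noncomputable abbrev K : Subgroup Co0 := Subgroup.centralizer ({aElt} : Set Co0) ⊓ octCent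

theorem fix_pointwise {g : Co0} (hg : g ∈ octFix) (v : octLattice) :
    g • (v : leechLattice) = v := by
  obtain ⟨x, rfl⟩ := fixElt_surjective hg
  refine Subtype.ext (funext fun i => ?_)
  rw [fixElt, monomial_apply]
  rcases eq_or_ne (baseOctad i) 0 with hi | hi
  · have hs : baseOctad ((transM x.2).1.symm i) = 0 := by
      by_contra h
      have h1 := (trans_facts x.2).2 _ h
      have h1' : (transM x.2).1 ((transM x.2).1.symm i) = (transM x.2).1.symm i := h1
      rw [Equiv.apply_symm_apply] at h1'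
      rw [← h1'] at h
      exact h hi
    rw [v.2 i hi, v.2 _ hs]
    simp
  · rw [show (transM x.2).1.symm i = i from (Equiv.symm_apply_eq _).2 ((trans_facts x.2).2 i hi).symm,
      if_pos (outCombo_facts.1 x.1 i hi)]

theorem conj_octFix {g x : Co0} (hg : g ∈ octCent) (hx : x ∈ octFix) : g * x * g⁻¹ ∈ octFix := by
  intro i hi
  have h := smul_mem_octLattice ⟨g⁻¹, inv_mem hg⟩ (axis_root i hi)
  rw [mul_smul, mul_smul, fix_pointwise hx ⟨_, h⟩]
  exact smul_inv_smul g _

theorem conj_Qa (k : K) (g : Qa) : (k : Co0) * g * (k : Co0)⁻¹ ∈ Qa :=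
  ⟨conj_octFix k.2.2 g.2.1, mul_mem (mul_mem k.2.1 g.2.2) (Subgroup.inv_mem _ k.2.1)⟩

/-- Conjugation on the centralised part. -/
noncomputable def qConj (k : K) (g : Qa) : Qa := ⟨_, conj_Qa k g⟩

theorem qConj_mul (k : K) (g h : Qa) : qConj k (g * h) = qConj k g * qConj k h :=
  Subtype.ext (by simp [qConj, mul_assoc])

theorem qConj_zc (k : K) : qConj k ⟨zc, zc_Qa⟩ = ⟨zc, zc_Qa⟩ :=
  Subtype.ext (mul_inv_eq_iff_eq_mul.2 (zc_central k.2.2))

/-- The action on coordinates. -/
noncomputable def act (k : K) (v : V6) : V6 := piQ (qConj k (piQ_surjective v).choose)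

theorem act_spec (k : K) (g : Qa) : act k (piQ g) = piQ (qConj k g) := by
  rcases piQ_eq (piQ_surjective (piQ g)).choose_spec with e | e
  · rw [act, show (piQ_surjective (piQ g)).choose = g from (Subtype.ext e).symm]
  · have hg : g = (piQ_surjective (piQ g)).choose * ⟨zc, zc_Qa⟩ := Subtype.ext e
    conv_rhs => rw [hg]
    rw [act, qConj_mul, piQ_mul, qConj_zc, piQ_zc, add_zero]

noncomputable instance kAction : MulAction K V6 where
  smul := act
  one_smul v := by
    obtain ⟨g, rfl⟩ := piQ_surjective v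
    show act 1 (piQ g) = piQ g
    rw [act_spec]
    exact congrArg piQ (Subtype.ext (by simp [qConj]))
  mul_smul k l v := by
    obtain ⟨g, rfl⟩ := piQ_surjective v
    show act (k * l) (piQ g) = act k (act l (piQ g))
    rw [act_spec, act_spec, act_spec]
    exact congrArg piQ (Subtype.ext (by simp [qConj, mul_assoc]))

theorem smul_piQ (k : K) (g : Qa) : k • piQ g = piQ (qConj k g) := act_spec k g

theorem k_smul_add (k : K) (v w : V6) : k • (v + w) = k • v + k • w := by
  obtain ⟨g, rfl⟩ := piQ_surjective v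
  obtain ⟨h, rfl⟩ := piQ_surjective w
  rw [← piQ_mul, smul_piQ, smul_piQ, smul_piQ, qConj_mul, piQ_mul]

/-- The action as a linear map. -/
noncomputable def kLin (k : K) : V6 →ₗ[ZMod 2] V6 :=
  (AddMonoidHom.mk' (fun v => k • v) (k_smul_add k)).toZModLinearMap 2

theorem kLin_apply (k : K) (v : V6) : kLin k v = k • v := rfl

/-- The matrices. -/
noncomputable def kMat (k : K) : Matrix ((Fin 2 ⊕ Fin 2) ⊕ Fin 2) ((Fin 2 ⊕ Fin 2) ⊕ Fin 2) (ZMod 2) :=
  LinearMap.toMatrix' (kLin k)

theorem kMat_mulVec (k : K) (v : V6) : kMat k *ᵥ v = k • v := by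
  rw [kMat, LinearMap.toMatrix'_mulVec, kLin_apply]

/-- The matrices form a representation. -/
noncomputable def kMatHom : K →* Matrix ((Fin 2 ⊕ Fin 2) ⊕ Fin 2) ((Fin 2 ⊕ Fin 2) ⊕ Fin 2) (ZMod 2) where
  toFun := kMat
  map_one' := Matrix.ext_of_mulVec_single fun j => by rw [kMat_mulVec, one_smul, Matrix.one_mulVec]
  map_mul' k l := Matrix.ext_of_mulVec_single fun j => by
    rw [← Matrix.mulVec_mulVec, kMat_mulVec, kMat_mulVec, kMat_mulVec, mul_smul]

theorem q6_smul (k : K) (v : V6) : q6 (k • v) = q6 v := by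
  obtain ⟨g, rfl⟩ := piQ_surjective v
  rw [smul_piQ]
  have h01 : ∀ x y : ZMod 2, (x = 0 ↔ y = 0) → x = y := by decide
  refine h01 _ _ ?_
  have h1 := square_piQ (qConj k g)
  have h2 := square_piQ g
  have h3 : ((qConj k g : Qa) : Co0) * (qConj k g : Qa) = (k : Co0) * ((g : Co0) * g) * (k : Co0)⁻¹ := by
    simp [qConj, mul_assoc]
  rw [h1, h2] at h3
  have hz : (k : Co0) * zc * (k : Co0)⁻¹ = zc := mul_inv_eq_iff_eq_mul.2 (zc_central k.2.2)
  by_cases ha : q6 (piQ g) = 0
  · rw [if_pos ha, mul_one, mul_inv_cancel] at h3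
    by_cases hb : q6 (piQ (qConj k g)) = 0
    · exact iff_of_true hb ha
    · rw [if_neg hb] at h3; exact absurd h3 zc_ne
  · rw [if_neg ha, hz] at h3
    by_cases hb : q6 (piQ (qConj k g)) = 0
    · rw [if_pos hb] at h3; exact absurd h3.symm zc_ne
    · exact iff_of_false hb ha

/-- The representation. -/
noncomputable def rep : K →* Cfsg.isometryGroup (ZMod 2) q6 :=
  kMatHom.toHomUnits.codRestrict _ fun k => CfsgLib.OrthGeo.mem_isometryGroup.2 fun v => by
    show q6 (kMat k *ᵥ v) = q6 v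
    rw [kMat_mulVec, q6_smul]

theorem rep_eq_one_iff (k : K) : rep k = 1 ↔ ∀ v : V6, k • v = v := by
  constructor
  · intro h v
    rw [← kMat_mulVec]
    have hM : kMat k = 1 := congrArg (fun x : Cfsg.isometryGroup (ZMod 2) q6 =>
      ((x : GL ((Fin 2 ⊕ Fin 2) ⊕ Fin 2) (ZMod 2)) : Matrix ((Fin 2 ⊕ Fin 2) ⊕ Fin 2) ((Fin 2 ⊕ Fin 2) ⊕ Fin 2) (ZMod 2))) h
    rw [hM, Matrix.one_mulVec]
  · intro h
    refine Subtype.ext (Units.ext (Matrix.ext_of_mulVec_single fun j => ?_))
    show kMat k *ᵥ _ = (1 : Matrix ((Fin 2 ⊕ Fin 2) ⊕ Fin 2) ((Fin 2 ⊕ Fin 2) ⊕ Fin 2) (ZMod 2)) *ᵥ _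
    rw [kMat_mulVec, h, Matrix.one_mulVec]

/-- The element of order 3 in `K`. -/
noncomputable def aK : K := ⟨aElt, Subgroup.mem_centralizer_singleton_iff.2 rfl, aElt_mem⟩

/-- The negation in `K`. -/
noncomputable def mK : K :=
  ⟨negOne, Subgroup.mem_centralizer_singleton_iff.2 (Subgroup.mem_center_iff.1 negOne_central _).symm,
    negOne_octCent⟩

theorem smul_of_conj_trivial {k : K} (h : ∀ g : Qa, piQ (qConj k g) = piQ g) : k ∈ rep.ker :=
  (rep_eq_one_iff k).2 fun v => by obtain ⟨g, rfl⟩ := piQ_surjective v; rw [smul_piQ, h]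

theorem aK_ker : aK ∈ rep.ker := smul_of_conj_trivial fun g => congrArg piQ (Subtype.ext
  (mul_inv_eq_iff_eq_mul.2 (Subgroup.mem_centralizer_singleton_iff.1 g.2.2).symm))

theorem mK_ker : mK ∈ rep.ker := smul_of_conj_trivial fun g => congrArg piQ (Subtype.ext
  (mul_inv_eq_iff_eq_mul.2 (Subgroup.mem_center_iff.1 negOne_central _).symm))

theorem Qa_le : Qa ≤ K := fun g hg => ⟨hg.2, octFix_le hg.1⟩

/-- The centralised part inside `K`. -/
noncomputable def qK : Subgroup K := Qa.subgroupOf K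

theorem qK_ker : qK ≤ rep.ker := fun k hk => smul_of_conj_trivial fun g => by
  rw [show qConj k g = ⟨(k : Co0), hk⟩ * g * ⟨(k : Co0), hk⟩⁻¹ from Subtype.ext rfl, piQ_mul, piQ_mul]
  have h : piQ (⟨(k : Co0), hk⟩⁻¹ : Qa) = piQ (⟨(k : Co0), hk⟩ : Qa) := by
    have := piQ_mul (⟨(k : Co0), hk⟩⁻¹ : Qa) ⟨(k : Co0), hk⟩
    rw [inv_mul_cancel, piQ_one] at this
    exact CharTwo.add_eq_zero.1 this.symm
  rw [h, add_right_comm, show piQ (⟨(k : Co0), hk⟩ : Qa) + piQ ⟨(k : Co0), hk⟩ = 0 from
    funext fun i => CharTwo.add_self_eq_zero _, zero_add]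

/-- The generators. -/
noncomputable def kGen (i : Fin 2) : K :=
  ⟨wordVal (kW i), Subgroup.mem_centralizer_singleton_iff.2 (comm_of_check (gen_checks i).1).symm,
    wordVal_octCent _ (by fin_cases i <;> simp [kW])⟩

/-- The images of the unit vectors under the generators. -/
def kTab : Fin 2 → Fin 6 → ℕ := ![![3, 1, 42, 29, 33, 50], ![43, 6, 2, 39, 32, 52]]

theorem kGen_basis (i : Fin 2) (j : Fin 6) : kGen i • vec6 (2 ^ (j : ℕ)) = vec6 (kTab i j) := by
  rw [← piQ_bQ, smul_piQ]
  have hm : (Atom.f (kImg i j).1 (kImg i j).2).val ∈ Qa :=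
    mem_Qa_of_inQ (g := ⟨_, fix_f (kImg i j)⟩) (by rw [code_f]; exact code_facts.2.2.2.2.1 i j)
  have h := comm_of_check ((gen_checks i).2 j)
  rw [wordVal_single, wordVal_single, par_ok.1 j] at h
  rw [show qConj (kGen i) (bQ j) = ⟨_, hm⟩ from Subtype.ext (mul_inv_eq_iff_eq_mul.2 h)]
  show pi8 (code ⟨_, fix_f (kImg i j)⟩) = _
  rw [code_f]
  fin_cases i
  · exact code_facts.2.2.2.2.2.1 j
  · exact code_facts.2.2.2.2.2.2 j

/-- A generator on masks. -/
def am6 (i : Fin 2) (v : ℕ) : ℕ :=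
  (List.finRange 6).foldl (fun r (j : Fin 6) => if v.testBit j.val then r ^^^ kTab i j else r) 0

theorem am6_ok : ∀ (i : Fin 2) (v : Fin 64),
    am6 i v < 64 ∧
    vec6 v = ∑ j : Fin 6, (if (v : ℕ).testBit j then (1 : ℕ) else 0) • vec6 (2 ^ (j : ℕ)) ∧
    vec6 (am6 i v) = ∑ j : Fin 6, (if (v : ℕ).testBit j then (1 : ℕ) else 0) • vec6 (kTab i j) := by
  decide +kernel

theorem kGen_mask (i : Fin 2) (v : Fin 64) : kGen i • vec6 v = vec6 (am6 i v) := by
  rw [← kLin_apply, (am6_ok i v).2.2]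
  conv_lhs => rw [(am6_ok i v).2.1]
  rw [map_sum]
  exact Finset.sum_congr rfl fun j _ => by rw [map_nsmul, kLin_apply, kGen_basis]

/-- A word in the generators. -/
noncomputable def kWord (w : List (Fin 2)) : K := (w.map kGen).prod

/-- A word on masks. -/
def wm6 : List (Fin 2) → ℕ → ℕ
  | [], v => v
  | i :: w, v => am6 i (wm6 w v)

theorem kWord_mask : ∀ (w : List (Fin 2)) (v : ℕ), v < 64 →
    wm6 w v < 64 ∧ kWord w • vec6 v = vec6 (wm6 w v)
  | [], v, h => ⟨h, by rw [kWord, List.map_nil, List.prod_nil, one_smul]; rfl⟩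
  | i :: w, v, h => by
    obtain ⟨h1, h2⟩ := kWord_mask w v h
    refine ⟨(am6_ok i ⟨_, h1⟩).1, ?_⟩
    rw [show kWord (i :: w) = kGen i * kWord w by simp [kWord], mul_smul, h2]
    exact kGen_mask i ⟨_, h1⟩

/-! ### Chains of point stabilisers -/

theorem card_le_mul {G V : Type*} [Group G] [Finite G] [MulAction G V] (H : Subgroup G) (v : V)
    (S : Finset V) (h : ∀ g ∈ H, g • v ∈ S) :
    Nat.card H ≤ S.card * Nat.card ↥(H ⊓ MulAction.stabilizer G v) := by
  have hst : MulAction.stabilizer H v = (MulAction.stabilizer G v).subgroupOf H :=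
    Subgroup.ext fun g => Iff.rfl
  have h1 := Subgroup.card_mul_index (MulAction.stabilizer H v)
  rw [MulAction.index_stabilizer, hst, ← Subgroup.inf_subgroupOf_left,
    Nat.card_congr (Subgroup.subgroupOfEquivOfLe inf_le_left).toEquiv] at h1
  rw [← h1, mul_comm]
  refine Nat.mul_le_mul_right _ ((Set.ncard_le_ncard ?_ S.finite_toSet).trans_eq (Set.ncard_coe_finset S))
  rintro _ ⟨g, rfl⟩
  exact h g.1 g.2

theorem card_ge_mul {G V : Type*} [Group G] [Finite G] [MulAction G V] (H : Subgroup G) (v : V)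
    (S : Finset V) (h : ∀ u ∈ S, ∃ g ∈ H, g • v = u) :
    S.card * Nat.card ↥(H ⊓ MulAction.stabilizer G v) ≤ Nat.card H := by
  have hst : MulAction.stabilizer H v = (MulAction.stabilizer G v).subgroupOf H :=
    Subgroup.ext fun g => Iff.rfl
  have h1 := Subgroup.card_mul_index (MulAction.stabilizer H v)
  rw [MulAction.index_stabilizer, hst, ← Subgroup.inf_subgroupOf_left,
    Nat.card_congr (Subgroup.subgroupOfEquivOfLe inf_le_left).toEquiv] at h1
  rw [← h1, mul_comm]
  refine Nat.mul_le_mul_left _ ((Set.ncard_coe_finset S).symm.trans_le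
    (Set.ncard_le_ncard ?_ (Set.finite_range _)))
  intro u hu
  obtain ⟨g, hg, e⟩ := h u hu
  exact ⟨⟨g, hg⟩, e⟩

/-- The points reached by a tree of words, when it is valid. -/
def reach6 (ws : List (List (Fin 2))) : List (ℕ × ℕ × ℕ) → List ℕ → List ℕ
  | [], known => known
  | (v, k, p) :: l, known =>
    if p ∈ known ∧ k < ws.length ∧ wm6 (ws.getD k []) p = v then reach6 ws l (v :: known) else []

theorem reach6_spec {H : Subgroup K} (ws : List (List (Fin 2))) (hws : ∀ w ∈ ws, kWord w ∈ H) (b : ℕ)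
    (hb : b < 64) : ∀ (l : List (ℕ × ℕ × ℕ)) (known : List ℕ),
      (∀ v ∈ known, v < 64 ∧ ∃ h ∈ H, h • vec6 b = vec6 v) →
      ∀ v ∈ reach6 ws l known, v < 64 ∧ ∃ h ∈ H, h • vec6 b = vec6 v := by
  intro l
  induction l with
  | nil => exact fun known h => h
  | cons e l ih =>
    obtain ⟨v, k, p⟩ := e
    intro known h
    rw [reach6]
    split_ifs with hc
    · refine ih _ fun u hu => ?_
      rcases List.mem_cons.1 hu with rfl | hu
      · obtain ⟨hp, g, hg, e⟩ := h p hc.1
        obtain ⟨h1, h2⟩ := kWord_mask (ws.getD k []) p hp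
        refine ⟨hc.2.2 ▸ h1, kWord (ws.getD k []) * g, mul_mem (hws _ ?_) hg, ?_⟩
        · rw [List.getD_eq_getElem _ _ hc.2.1]; exact List.getElem_mem _
        · rw [mul_smul, e, h2, hc.2.2]
      · exact h u hu
    · simp

/-- The base points. -/
def basePts : Fin 4 → ℕ := ![1, 10, 18, 4]

/-- The words of the stages. -/
def stageWords : Fin 4 → List (List (Fin 2)) :=
  ![[[0], [1]],
    [[0, 1, 1, 1, 0, 0], [0, 1, 1, 0, 1, 0], [0, 1, 1, 0, 0, 1]],
    [[1, 0, 1, 1, 0, 1, 0, 1], [0, 1, 1, 1, 1, 1, 1, 0, 0], [0, 1, 1, 1, 0, 1, 1, 0, 1, 1, 1]],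
    [[0, 1, 1, 1, 1, 1, 1, 0, 0], [0, 0, 1, 1, 0, 1, 1, 1, 0, 1, 1, 0, 1, 0]]]

/-- The trees of the stages. -/
def stageTree : Fin 4 → List (ℕ × ℕ × ℕ) :=
  ![[(3, 0, 1), (43, 1, 1), (2, 0, 3), (45, 1, 3), (62, 1, 43), (6, 1, 2), (58, 1, 45), (37, 0, 62), (55, 1, 62), (4, 1, 6), (15, 0, 58), (53, 1, 58), (27, 0, 37), (29, 1, 37), (59, 0, 55), (42, 0, 4), (8, 1, 15), (61, 1, 53), (21, 0, 29), (46, 1, 29), (12, 0, 59), (30, 1, 59), (39, 1, 8), (26, 1, 61), (9, 1, 21), (23, 1, 46)],
    [(33, 0, 10), (17, 1, 10), (57, 2, 10), (11, 1, 33), (49, 2, 33), (40, 0, 17), (19, 1, 17), (18, 2, 17), (56, 0, 57), (50, 1, 57), (32, 0, 11), (16, 1, 11), (35, 0, 49), (25, 1, 49), (34, 2, 49), (51, 2, 40), (41, 1, 19), (24, 0, 50), (48, 2, 32)],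
    [(35, 0, 18), (41, 2, 18), (51, 0, 35), (34, 1, 35), (24, 2, 35), (57, 0, 41), (40, 1, 41), (56, 2, 51), (50, 0, 34), (25, 2, 34), (19, 2, 40)],
    [(46, 0, 4), (21, 1, 4), (62, 1, 46)]]

theorem stage_facts : ∀ s : Fin 4,
    (∀ w ∈ stageWords s, ∀ t : Fin 4, t < s → wm6 w (basePts t) = basePts t) ∧
    basePts s < 64 ∧
    (((reach6 (stageWords s) (stageTree s) [basePts s]).map vec6).toFinset).card = ![27, 20, 12, 4] s := by
  decide +kernel

/-- The stabiliser of the first base points. -/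
noncomputable def stage : ℕ → Subgroup K
  | 0 => ⊤
  | n + 1 => stage n ⊓ MulAction.stabilizer K (vec6 (if h : n < 4 then basePts ⟨n, h⟩ else 0))

theorem mem_stage : ∀ (n : ℕ) (k : K), n ≤ 4 →
    (∀ t : Fin 4, (t : ℕ) < n → k • vec6 (basePts t) = vec6 (basePts t)) → k ∈ stage n
  | 0, _, _, _ => Subgroup.mem_top _
  | n + 1, k, hn, h => by
    refine ⟨mem_stage n k (by omega) fun t ht => h t (by omega), ?_⟩
    refine MulAction.mem_stabilizer_iff.2 ?_
    rw [dif_pos (by omega : n < 4)]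
    exact h ⟨n, by omega⟩ (by simp)

theorem stage_ge (s : Fin 4) :
    ![27, 20, 12, 4] s * Nat.card (stage ((s : ℕ) + 1)) ≤ Nat.card (stage (s : ℕ)) := by
  haveI : Finite Co0 := finite_co0
  have hs : stage ((s : ℕ) + 1) = stage (s : ℕ) ⊓ MulAction.stabilizer K (vec6 (basePts s)) := by
    rw [stage, dif_pos s.2]
  rw [hs, ← (stage_facts s).2.2]
  refine card_ge_mul _ _ _ fun u hu => ?_
  rw [List.mem_toFinset, List.mem_map] at hu
  obtain ⟨v, hv, rfl⟩ := hu
  refine (reach6_spec (H := stage (s : ℕ)) (stageWords s) (fun w hw => mem_stage _ _ s.2.le fun t ht => ?_)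
    (basePts s) (stage_facts s).2.1 _ _ (fun x hx => ?_) v hv).2
  · obtain ⟨-, h2⟩ := kWord_mask w (basePts t) (stage_facts t).2.1
    rw [h2, (stage_facts s).1 w hw t ht]
  · rw [List.mem_singleton] at hx
    subst hx
    exact ⟨(stage_facts s).2.1, 1, one_mem _, one_smul _ _⟩

theorem card_K_ge : 25920 * Nat.card rep.ker ≤ Nat.card K := by
  haveI : Finite Co0 := finite_co0
  have h0 : Nat.card (stage 0) = Nat.card K := by rw [stage]; exact Subgroup.card_top
  have h4 : Nat.card rep.ker ≤ Nat.card (stage 4) :=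
    Subgroup.card_le_of_le fun k hk => mem_stage 4 k le_rfl fun t _ => (rep_eq_one_iff k).1 hk _
  have e0 := stage_ge 0
  have e1 := stage_ge 1
  have e2 := stage_ge 2
  have e3 := stage_ge 3
  simp only [Fin.isValue, Matrix.cons_val_zero, Matrix.cons_val_one, Matrix.cons_val] at e0 e1 e2 e3
  norm_num at e0 e1 e2 e3
  omega

/-! ### The bound from the octad space -/

/-- The word of the element of order 3 in the generators. -/
def aIdx : List (Fin 7) := [0, 6, 5, 4, 0, 6, 5, 4, 0, 6, 5, 4, 0, 6, 5, 4]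

theorem octMat_list : ∀ (l : List (Fin 7)) (v : ℕ), v < 256 → l.foldr applyMask v < 256 →
    (∀ k p, p < 256 → applyMask k p < 256) →
    octMat (l.map gen).prod *ᵥ decVec v = decVec (l.foldr applyMask v)
  | [], v, _, _, _ => by
    rw [List.map_nil, List.prod_nil, show octMat 1 = 1 from map_one octMatHom, Matrix.one_mulVec]
    rfl
  | k :: l, v, hv, _, hb => by
    have hl : l.foldr applyMask v < 256 := by
      clear * - hv hb
      induction l with
      | nil => exact hv
      | cons x l ih => exact hb x _ ih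
    rw [List.map_cons, List.prod_cons, show octMat (gen k * (l.map gen).prod) =
      octMat (gen k) * octMat (l.map gen).prod from map_mul octMatHom _ _, ← Matrix.mulVec_mulVec,
      octMat_list l v hv hl hb]
    exact gen_mask k ⟨_, hl⟩

theorem applyMask_lt : ∀ (k : Fin 7) (p : Fin 256), applyMask k p < 256 := by decide +kernel

/-- The element of order 3 on masks. -/
def aBar (v : ℕ) : ℕ := aIdx.foldr applyMask v

theorem aBar_lt : ∀ v : Fin 256, aBar v < 256 := by decide +kernel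

theorem aElt_mask (v : Fin 256) :
    octMat ⟨aElt, aElt_mem⟩ *ᵥ decVec v = decVec (aBar v) := by
  rw [show (⟨aElt, aElt_mem⟩ : octCent) = (aIdx.map gen).prod from Subtype.ext (by
    simp [aElt, wordVal, aW, aIdx, Atom.val])]
  exact octMat_list _ _ v.2 (aBar_lt v) fun k p hp => applyMask_lt k ⟨p, hp⟩

/-- The map to `octCent`. -/
noncomputable def toCent : K →* octCent := Subgroup.inclusion inf_le_right

noncomputable instance kOctAction : MulAction K OctSpace := MulAction.compHom OctSpace toCent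

theorem kOct_def (k : K) (v : OctSpace) : k • v = octMat (toCent k) *ᵥ v := rfl

theorem kOct_add (k : K) (v w : OctSpace) : k • (v + w) = k • v + k • w := by
  rw [kOct_def, kOct_def, kOct_def]
  exact Matrix.mulVec_add _ _ _

theorem kOct_form (k : K) (v : OctSpace) : octForm (k • v) = octForm v := octMat_isometry _ _

theorem kOct_abar (k : K) (v : Fin 256) (hk : k • decVec v = decVec v) :
    k • decVec (aBar v) = decVec (aBar v) := by
  have hc : toCent k * ⟨aElt, aElt_mem⟩ = ⟨aElt, aElt_mem⟩ * toCent k :=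
    Subtype.ext (Subgroup.mem_centralizer_singleton_iff.1 k.2.1)
  rw [kOct_def] at hk ⊢
  rw [← aElt_mask, Matrix.mulVec_mulVec,
    show octMat (toCent k) * octMat ⟨aElt, aElt_mem⟩ = octMat (toCent k * ⟨aElt, aElt_mem⟩) from
      (map_mul octMatHom _ _).symm, hc,
    show octMat (⟨aElt, aElt_mem⟩ * toCent k) = octMat ⟨aElt, aElt_mem⟩ * octMat (toCent k) from
      map_mul octMatHom _ _, ← Matrix.mulVec_mulVec, hk]

/-- The base vectors. -/
def octBase : Fin 4 → Fin 256 := ![17, 25, 29, 31]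

/-- The fixed vectors before a stage. -/
def fixedMasks (s : Fin 4) : List ℕ :=
  ((List.finRange 4).filter (fun t : Fin 4 => decide (t < s))).flatMap fun t => [(octBase t : ℕ), aBar (octBase t)]

/-- The candidates for the image of a base vector. -/
def cand (s : Fin 4) : Finset OctSpace :=
  ((Finset.univ : Finset (Fin 256)).filter fun u : Fin 256 =>
    octForm (decVec u) = octForm (decVec (octBase s)) ∧
      ∀ w ∈ fixedMasks s, octForm (decVec u + decVec w) = octForm (decVec (octBase s) + decVec w)).image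
    fun u : Fin 256 => decVec u

theorem cand_facts :
    (∀ s : Fin 4, (((Finset.univ : Finset (Fin 256)).filter fun u : Fin 256 =>
      octForm (decVec u) = octForm (decVec (octBase s)) ∧
        ∀ w ∈ fixedMasks s, octForm (decVec u + decVec w) = octForm (decVec (octBase s) + decVec w))).card ≤
      ![120, 36, 6, 3] s) ∧
    (∀ j : Fin 8, decVec (2 ^ (j : ℕ)) =
      ∑ i ∈ (![({0, 1, 3, 5, 7} : Finset (Fin 8)), {4, 6}, {2, 4}, {0, 2}, {1, 3, 5, 7}, {4, 6, 7},
        {0, 2, 5, 7}, {0, 3, 4, 5, 7}] j),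
        decVec (![17, 156, 25, 196, 29, 106, 31, 34] i)) ∧
    (∀ t : Fin 4, [(octBase t : ℕ), aBar (octBase t)] =
      [![17, 156, 25, 196, 29, 106, 31, 34] ⟨2 * t, by omega⟩,
        ![17, 156, 25, 196, 29, 106, 31, 34] ⟨2 * t + 1, by omega⟩]) ∧
    (∀ j, decVec (2 ^ (j : Fin 8).val) = Pi.single (basisIdx j) 1) := by
  decide +kernel

/-- The stabiliser in `K` of the first base vectors. -/
noncomputable def octStage : ℕ → Subgroup K
  | 0 => ⊤
  | n + 1 => octStage n ⊓ MulAction.stabilizer K (decVec (if h : n < 4 then (octBase ⟨n, h⟩ : ℕ) else 0))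

theorem octStage_fix : ∀ (n : ℕ) (k : K), n ≤ 4 → k ∈ octStage n →
    ∀ t : Fin 4, (t : ℕ) < n → k • decVec (octBase t) = decVec (octBase t)
  | 0, _, _, _, t, ht => absurd ht (by omega)
  | n + 1, k, hn, hk, t, ht => by
    rcases Nat.lt_succ_iff_lt_or_eq.1 ht with h | h
    · exact octStage_fix n k (by omega) hk.1 t h
    · have := MulAction.mem_stabilizer_iff.1 hk.2
      rw [dif_pos (by omega : n < 4)] at this
      rwa [show (⟨n, by omega⟩ : Fin 4) = t from Fin.ext h.symm] at this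

theorem octStage_le (s : Fin 4) :
    Nat.card (octStage (s : ℕ)) ≤ ![120, 36, 6, 3] s * Nat.card (octStage ((s : ℕ) + 1)) := by
  haveI : Finite Co0 := finite_co0
  have hs : octStage ((s : ℕ) + 1) = octStage (s : ℕ) ⊓ MulAction.stabilizer K (decVec (octBase s)) := by
    rw [octStage, dif_pos s.2]
  rw [hs]
  refine (card_le_mul _ _ (cand s) fun k hk => ?_).trans
    (Nat.mul_le_mul_right _ (Finset.card_image_le.trans (cand_facts.1 s)))
  obtain ⟨u, hu⟩ := decVec_surjective (k • decVec (octBase s))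
  refine Finset.mem_image.2 ⟨u, Finset.mem_filter.2 ⟨Finset.mem_univ _, ?_, fun w hw => ?_⟩, hu⟩
  · rw [hu, kOct_form]
  · rw [fixedMasks, List.mem_flatMap] at hw
    obtain ⟨t, ht, hw⟩ := hw
    have hts : t < s := of_decide_eq_true (List.mem_filter.1 ht).2
    have hfix := octStage_fix _ k s.2.le hk t hts
    have hwfix : k • decVec w = decVec w := by
      simp only [List.mem_cons, List.not_mem_nil, or_false] at hw
      rcases hw with rfl | rfl
      · exact hfix
      · exact kOct_abar k _ hfix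
    rw [hu]
    conv_lhs => rw [← hwfix, ← kOct_add, kOct_form]

theorem octStage_four {k : K} (hk : k ∈ octStage 4) : octRep (toCent k) = 1 := by
  have hF : ∀ i : Fin 8, k • decVec (![17, 156, 25, 196, 29, 106, 31, 34] i) =
      decVec (![17, 156, 25, 196, 29, 106, 31, 34] i) := by
    intro i
    obtain ⟨t, rfl | rfl⟩ : ∃ t : Fin 4, i = ⟨2 * t, by omega⟩ ∨ i = ⟨2 * t + 1, by omega⟩ :=
      ⟨⟨i / 2, by omega⟩, by simp only [Fin.ext_iff]; omega⟩
    all_goals
      have h := cand_facts.2.2.1 t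
      simp only [List.cons.injEq, and_true] at h
      have hfix := octStage_fix 4 k le_rfl hk t t.2
    · rw [← h.1]; exact hfix
    · rw [← h.2]; exact kOct_abar k _ hfix
  refine Subtype.ext (Units.ext (Matrix.ext_of_mulVec_single fun j => ?_))
  obtain ⟨j, rfl⟩ : ∃ i : Fin 8, basisIdx i = j := by revert j; decide +kernel
  show octMat (toCent k) *ᵥ _ = (1 : Matrix (Fin 4 ⊕ Fin 4) (Fin 4 ⊕ Fin 4) (ZMod 2)) *ᵥ _
  rw [Matrix.one_mulVec, ← cand_facts.2.2.2 j, cand_facts.2.1 j, Matrix.mulVec_sum]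
  exact Finset.sum_congr rfl fun i _ => hF i

theorem card_octStage_four : Nat.card (octStage 4) ≤ 256 := by
  classical
  haveI : Finite Co0 := finite_co0
  let f : Bool × Qa → K := fun p => (if p.1 then mK else 1) * ⟨p.2.1, Qa_le p.2.2⟩
  have hsub : (octStage 4 : Set K) ⊆ Set.range f := by
    intro k hk
    rcases ker_octRep_cases (octStage_four hk) with h | h
    · exact ⟨(false, ⟨k.1, h, k.2.1⟩), by simp [f]⟩
    · refine ⟨(true, ⟨negOne * k.1, h, mul_mem mK.2.1 k.2.1⟩), Subtype.ext ?_⟩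
      show negOne * (negOne * (k : Co0)) = k
      rw [← mul_assoc, negOne_mul_self, one_mul]
  rw [← SetLike.coe_sort_coe, Nat.card_coe_set_eq]
  refine (Set.ncard_le_ncard hsub (Set.finite_range f)).trans ?_
  rw [← Nat.card_coe_set_eq]
  refine (Finite.card_range_le f).trans ?_
  rw [Nat.card_prod, card_Qa]; simp

theorem card_K_le : Nat.card K ≤ 19906560 := by
  haveI : Finite Co0 := finite_co0
  have h0 : Nat.card (octStage 0) = Nat.card K := by rw [octStage]; exact Subgroup.card_top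
  have e0 := octStage_le 0
  have e1 := octStage_le 1
  have e2 := octStage_le 2
  have e3 := octStage_le 3
  have h4 := card_octStage_four
  simp only [Fin.isValue, Matrix.cons_val_zero, Matrix.cons_val_one, Matrix.cons_val] at e0 e1 e2 e3
  norm_num at e0 e1 e2 e3
  omega

end CfsgLib.SuzSection
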