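import Mathlib
import Cfsg.Agent.SuzSection97.Core
import Cfsg.Agent.Classical.Orth.CentreOmega
import Cfsg.Agent.OrthGeo.Simple

set_option autoImplicit false
set_option linter.style.haveILetI false

/-! The kernel and the image of the representation on the centralised part. -/

namespace CfsgLib.SuzSection

open Cfsg CfsgLib.Leech Cfsg.Geo
open scoped Pointwise Matrix

theorem negOne_cases {c : Co0} (hc : c ∈ Subgroup.center Co0) : c * c = 1 := by
  rcases center_co0_cases hc with rfl | rfl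
  · exact one_mul 1
  · exact negOne_mul_self

theorem aElt_zpow_of_sq {i : ℤ} (h : (aElt ^ i) * (aElt ^ i) = 1) : aElt ^ i = 1 := by
  have h3 : (aElt ^ i) ^ 3 = 1 := by
    rw [← zpow_natCast, ← zpow_mul, mul_comm, zpow_mul, zpow_natCast, aElt_pow_three, one_zpow]
  calc aElt ^ i = (aElt ^ i) * ((aElt ^ i) * (aElt ^ i)) := by rw [h, mul_one]
    _ = 1 := by rw [← pow_three, h3]

theorem aElt_ne : aElt ≠ 1 := by
  intro h
  have h17 := aElt_mask 17
  rw [show (⟨aElt, aElt_mem⟩ : octCent) = 1 from Subtype.ext h, show octMat 1 = 1 from map_one octMatHom,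
    Matrix.one_mulVec] at h17
  exact absurd h17 (by decide +kernel)

theorem orderOf_aElt : orderOf aElt = 3 :=
  orderOf_eq_prime (hp := ⟨Nat.prime_three⟩) aElt_pow_three aElt_ne

/-- An element of the centralised part lying in the central subgroup is trivial. -/
theorem qa_trivial {g : Co0} (hg : g ∈ Qa) {i : ℤ} {c : Co0} (hc : c ∈ Subgroup.center Co0)
    (e : g = aElt ^ i * c) : g = 1 := by
  have hcc := negOne_cases hc
  have hgg : g * g = aElt ^ i * aElt ^ i := by
    rw [e, show aElt ^ i * c * (aElt ^ i * c) = aElt ^ i * (c * aElt ^ i) * c by simp only [mul_assoc],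
      ← Subgroup.mem_center_iff.1 hc (aElt ^ i), mul_assoc, mul_assoc, hcc, mul_one]
  have hai : aElt ^ i = 1 := by
    have hsq := square_piQ ⟨g, hg⟩
    dsimp only at hsq
    split_ifs at hsq
    · exact aElt_zpow_of_sq (hgg.symm.trans hsq)
    · exfalso
      refine zc_ne ?_
      have h3 : zc ^ 3 = 1 := by
        rw [← hsq, hgg, ← zpow_add, ← zpow_natCast, ← zpow_mul, mul_comm, zpow_mul, zpow_natCast,
          aElt_pow_three, one_zpow]
      rwa [pow_three, zc_sq, mul_one] at h3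
  rw [hai, one_mul] at e
  rcases center_co0_cases hc with r | r
  · exact e.trans r
  · exact absurd ((e.trans r) ▸ hg.1) negOne_not_octFix

/-- The central part. -/
noncomputable def dElt (p : Fin 3 × Bool) : K := aK ^ (p.1 : ℕ) * if p.2 then mK else 1

theorem dElt_coe (p : Fin 3 × Bool) :
    (dElt p : Co0) = aElt ^ (p.1 : ℕ) * if p.2 then negOne else 1 := by
  obtain ⟨i, s⟩ := p
  cases s <;> rfl

theorem negOne_ne_one : negOne ≠ 1 := fun h => negOne_not_octFix (h ▸ one_mem octFix)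

theorem dElt_injective {p p' : Fin 3 × Bool} (h : (dElt p : Co0) = dElt p') : p = p' := by
  obtain ⟨i, s⟩ := p
  obtain ⟨j, t⟩ := p'
  rw [dElt_coe, dElt_coe] at h
  have hpow : aElt ^ (i : ℕ) = aElt ^ (j : ℕ) := by
    have key : ∀ (n m : ℕ) (x y : Co0), x ∈ Subgroup.center Co0 → y ∈ Subgroup.center Co0 →
        aElt ^ n * x = aElt ^ m * y → aElt ^ n = aElt ^ m := by
      intro n m x y hx hy e
      have e2 : (aElt ^ ((n : ℤ) - m)) = x⁻¹ * y := by
        rw [zpow_sub, zpow_natCast, zpow_natCast, eq_inv_mul_iff_mul_eq, ← mul_assoc,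
          ← Subgroup.mem_center_iff.1 hx, e, mul_assoc, ← Subgroup.mem_center_iff.1 hy, ← mul_assoc,
          mul_inv_cancel, one_mul]
      have hxy : x⁻¹ * y ∈ Subgroup.center Co0 := mul_mem (inv_mem hx) hy
      have h1 := aElt_zpow_of_sq (i := (n : ℤ) - m) (by rw [e2]; exact negOne_cases hxy)
      rwa [zpow_sub, zpow_natCast, zpow_natCast, mul_inv_eq_one] at h1
    refine key _ _ _ _ ?_ ?_ h <;> split_ifs <;> first | exact negOne_central | exact one_mem _
  have hij : i = j := Fin.ext (pow_injOn_Iio_orderOf (by rw [orderOf_aElt]; exact i.2)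
    (by rw [orderOf_aElt]; exact j.2) hpow)
  subst hij
  have h2 := mul_left_cancel h
  cases s <;> cases t
  · rfl
  · exact absurd (by simpa using h2.symm) negOne_ne_one
  · exact absurd (by simpa using h2) negOne_ne_one
  · rfl

theorem dElt_split (p : Fin 3 × Bool) :
    ∃ (i : ℤ) (c : Co0), c ∈ Subgroup.center Co0 ∧ (dElt p : Co0) = aElt ^ i * c :=
  ⟨(p.1 : ℕ), if p.2 then negOne else 1, by split_ifs <;> first | exact negOne_central | exact one_mem _,
    by rw [zpow_natCast, dElt_coe]⟩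

theorem dElt_ker (p : Fin 3 × Bool) : dElt p ∈ rep.ker := by
  refine mul_mem (pow_mem aK_ker _) ?_
  split_ifs
  · exact mK_ker
  · exact one_mem _

/-- The known part of the kernel. -/
noncomputable def kerMap (p : Qa × (Fin 3 × Bool)) : rep.ker :=
  ⟨(⟨(p.1 : Co0), Qa_le p.1.2⟩ : K) * dElt p.2, mul_mem (qK_ker p.1.2) (dElt_ker p.2)⟩

theorem kerMap_injective : Function.Injective kerMap := by
  rintro ⟨g, p⟩ ⟨g', p'⟩ h
  have h1 : (g : Co0) * dElt p = (g' : Co0) * dElt p' :=
    congrArg (fun z : rep.ker => ((z.1 : K) : Co0)) h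
  obtain ⟨i, c, hc, hd⟩ := dElt_split p
  obtain ⟨i', c', hc', hd'⟩ := dElt_split p'
  have he : (g' : Co0)⁻¹ * g = aElt ^ (i' - i) * (c' * c⁻¹) := by
    rw [zpow_sub, inv_mul_eq_iff_eq_mul, show (aElt ^ i' * (aElt ^ i)⁻¹) * (c' * c⁻¹) =
      aElt ^ i' * ((aElt ^ i)⁻¹ * c') * c⁻¹ by simp only [mul_assoc],
      Subgroup.mem_center_iff.1 hc', ← mul_assoc (aElt ^ i'), ← hd', mul_assoc (dElt p' : Co0),
      ← mul_assoc (g' : Co0), ← h1, hd, mul_assoc, mul_assoc,
      show aElt ^ i * (c * ((aElt ^ i)⁻¹ * c⁻¹)) = (aElt ^ i * c) * (c * aElt ^ i)⁻¹ by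
        simp only [mul_inv_rev, mul_assoc],
      ← Subgroup.mem_center_iff.1 hc (aElt ^ i), mul_inv_cancel, mul_one]
  have hg : (g' : Co0)⁻¹ * g = 1 := qa_trivial (g'⁻¹ * g).2 (mul_mem hc' (inv_mem hc)) he
  have hgg : g = g' := Subtype.ext (inv_mul_eq_one.1 hg).symm
  subst hgg
  exact Prod.ext rfl (dElt_injective (mul_left_cancel h1))

theorem card_ker_and_range : Nat.card rep.ker = 768 ∧ Nat.card rep.range = 25920 := by
  classical
  haveI : Finite Co0 := finite_co0
  have h1 : 768 ≤ Nat.card rep.ker := by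
    refine le_trans (le_of_eq ?_) (Nat.card_le_card_of_injective kerMap kerMap_injective)
    rw [Nat.card_prod, Nat.card_prod, card_Qa]; simp
  have h2 := card_K_ge
  have h3 := card_K_le
  have h4 := Subgroup.card_mul_index rep.ker
  rw [Subgroup.index_ker] at h4
  have hk : Nat.card rep.ker = 768 := by omega
  refine ⟨hk, ?_⟩
  have hK : Nat.card K = 19906560 := by rw [hk] at h2; omega
  rw [hk, hK] at h4
  omega

theorem ker_cases {k : K} (hk : k ∈ rep.ker) : ∃ (g : Qa) (p : Fin 3 × Bool), (k : Co0) = g * dElt p := by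
  haveI : Finite Co0 := finite_co0
  have hb : Function.Bijective kerMap := (Nat.bijective_iff_injective_and_card kerMap).2
    ⟨kerMap_injective, by rw [Nat.card_prod, Nat.card_prod, card_Qa, card_ker_and_range.1]; simp⟩
  obtain ⟨⟨g, p⟩, e⟩ := hb.2 ⟨k, hk⟩
  exact ⟨g, p, (congrArg (fun z : rep.ker => ((z.1 : K) : Co0)) e).symm⟩

theorem q6_nondeg : IsNondegenerateQuadraticForm q6 :=
  CfsgLib.Classical.Orth.isNondegQF_quadFormMinus (F := ZMod 2) 2 1 1 (by decide)

theorem card_iso6 : Nat.card (Cfsg.isometryGroup (ZMod 2) q6) = 51840 := by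
  rw [q6, CfsgLib.Classical.Orth.card_isometryGroup_minus (F := ZMod 2) 1 1 (by decide) 2, ZMod.card]
  decide +kernel

theorem range_rep : rep.range = Cfsg.Omega (ZMod 2) q6 := by
  have h2 := Subgroup.card_mul_index rep.range
  rw [card_iso6, card_ker_and_range.2] at h2
  have hidx : rep.range.index = 2 := by omega
  have hge : Cfsg.Omega (ZMod 2) q6 ≤ rep.range := by
    rw [Cfsg.Omega, commutator_eq_closure, Subgroup.closure_le]
    rintro _ ⟨a, b, rfl⟩
    rw [SetLike.mem_coe, commutatorElement_def]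
    simp only [Subgroup.mul_mem_iff_of_index_two hidx, inv_mem_iff]
    tauto
  have hidx' : (Cfsg.Omega (ZMod 2) q6).index = 2 :=
    CfsgLib.Classical.Orth.index_omega_even q6_nondeg CharTwo.two_eq_zero (by simp) (by simp)
  refine (Subgroup.eq_of_le_of_card_ge hge ?_).symm
  have h3 := Subgroup.card_mul_index (Cfsg.Omega (ZMod 2) q6)
  rw [hidx', card_iso6] at h3
  rw [card_ker_and_range.2]
  omega

theorem omega6_simple : IsSimpleGroup (Cfsg.Omega (ZMod 2) q6) := by
  haveI := CfsgLib.OrthGeo.isSimpleGroup_POmega q6_nondeg (by decide)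
  have hc : Subgroup.center (Cfsg.Omega (ZMod 2) q6) = ⊥ :=
    Subgroup.card_eq_one.1 ((CfsgLib.Classical.Orth.card_center_omega q6_nondeg (by decide)).1
      (Or.inr CharTwo.two_eq_zero))
  exact ((QuotientGroup.quotientMulEquivOfEq hc).trans QuotientGroup.quotientBot).symm.isSimpleGroup

theorem kGen_noncomm : rep (kGen 0) * rep (kGen 1) ≠ rep (kGen 1) * rep (kGen 0) := by
  intro h
  rw [← map_mul, ← map_mul] at h
  have h2 : (kGen 1 * kGen 0)⁻¹ * (kGen 0 * kGen 1) ∈ rep.ker := by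
    rw [MonoidHom.mem_ker, map_mul, map_inv, h, inv_mul_cancel]
  have h3 : (kGen 0 * kGen 1) • vec6 4 = (kGen 1 * kGen 0) • vec6 4 :=
    inv_smul_eq_iff.1 (by rw [← mul_smul]; exact (rep_eq_one_iff _).1 h2 _)
  rw [mul_smul, mul_smul, show vec6 4 = vec6 ((4 : Fin 64) : ℕ) from rfl, kGen_mask 1 4, kGen_mask 0 4] at h3
  rw [kGen_mask 0 ⟨am6 1 (4 : Fin 64), (am6_ok 1 4).1⟩, kGen_mask 1 ⟨am6 0 (4 : Fin 64), (am6_ok 0 4).1⟩] at h3
  exact absurd h3 (by decide +kernel)

end CfsgLib.SuzSection
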