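import Mathlib
import Cfsg.Agent.SuzSection97.Range
import Cfsg.Agent.S5436
import Cfsg.Prelude.Def_Transfer
import Cfsg.Agent.Eq.Def_Transfer

set_option autoImplicit false
set_option linter.style.haveILetI false

/-! The section `C(a)/(⟨a⟩ × Z)` and the centraliser of the image of the sign change. -/

namespace CfsgLib.SuzSection

open Cfsg CfsgLib.Leech
open scoped Pointwise Matrix commutatorElement

/-- The group of order 3. -/
noncomputable abbrev A3 : Subgroup Co0 := Subgroup.zpowers aElt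

/-- Its centraliser. -/
noncomputable abbrev CA : Subgroup Co0 := Subgroup.centralizer (A3 : Set Co0)

theorem mem_CA {g : Co0} : g ∈ CA ↔ g ∈ Subgroup.centralizer ({aElt} : Set Co0) := by
  rw [CA, A3, Subgroup.zpowers_eq_closure, Subgroup.centralizer_closure]

/-- The central subgroup. -/
noncomputable abbrev NA : Subgroup CA := (A3 ⊔ Subgroup.center Co0).subgroupOf CA

theorem mem_sup_cases {g : Co0} (h : g ∈ A3 ⊔ Subgroup.center Co0) :
    ∃ (i : ℤ) (c : Co0), c ∈ Subgroup.center Co0 ∧ g = aElt ^ i * c := by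
  obtain ⟨y, hy, c, hc, rfl⟩ := Subgroup.mem_sup_of_normal_right.1 h
  obtain ⟨i, rfl⟩ := Subgroup.mem_zpowers_iff.1 hy
  exact ⟨i, c, hc, rfl⟩

instance NA_normal : NA.Normal := by
  refine ⟨fun n hn g => ?_⟩
  obtain ⟨i, c, hc, e⟩ := mem_sup_cases hn
  have hga : (g : Co0) * aElt = aElt * g := Subgroup.mem_centralizer_singleton_iff.1 (mem_CA.1 g.2)
  change (n : Co0) = _ at e
  have h1 : Commute (g : Co0) n := by
    rw [e]
    exact (Commute.zpow_right hga i).mul_right (Subgroup.mem_center_iff.1 hc _)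
  have h2 : g * n * g⁻¹ = n := Subtype.ext (mul_inv_eq_iff_eq_mul.2 h1.eq)
  rw [h2]; exact hn

/-- The section. -/
abbrev SZ : Type := CA ⧸ NA

instance finite_SZ : Finite SZ := by
  haveI : Finite Co0 := finite_co0
  infer_instance

/-- The projection. -/
noncomputable def prS : CA →* SZ := QuotientGroup.mk' NA

theorem prS_surjective : Function.Surjective prS := QuotientGroup.mk'_surjective _

theorem prS_eq_one {g : CA} : prS g = 1 ↔ (g : Co0) ∈ A3 ⊔ Subgroup.center Co0 :=
  QuotientGroup.eq_one_iff g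

theorem K_le_CA : K ≤ CA := fun _ hg => mem_CA.2 hg.1

theorem epsOct_sq : epsOct * epsOct = 1 := by
  rw [epsOct, signs_mul, signs_congr _ (Submodule.zero_mem _)
    (show baseOctad + baseOctad = 0 from funext fun i => CharTwo.add_self_eq_zero (baseOctad i)), signs_zero]

/-- The sign change in `K`. -/
noncomputable def eK : K :=
  ⟨epsOct, Subgroup.mem_centralizer_singleton_iff.2 (Subgroup.mem_centralizer_singleton_iff.1 aElt_mem).symm,
    Subgroup.mem_centralizer_singleton_iff.2 rfl⟩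

/-- The involution of the section. -/
noncomputable def zS : SZ := prS (Subgroup.inclusion K_le_CA eK)

/-- Its centraliser. -/
noncomputable abbrev CZ : Subgroup SZ := Subgroup.centralizer ({zS} : Set SZ)

/-- The map onto the centraliser. -/
noncomputable def tauC : K →* CZ :=
  (prS.comp (Subgroup.inclusion K_le_CA)).codRestrict _ fun k => by
    rw [Subgroup.mem_centralizer_singleton_iff, MonoidHom.comp_apply, zS, ← map_mul, ← map_mul,
      ← map_mul, ← map_mul]
    exact congrArg prS (congrArg (Subgroup.inclusion K_le_CA)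
      (Subtype.ext (Subgroup.mem_centralizer_singleton_iff.1 k.2.2)))

theorem tauC_coe (k : K) : (tauC k : SZ) = prS (Subgroup.inclusion K_le_CA k) := rfl

theorem involution_mod {x : Co0} (hx : x * x = 1) (hxa : x * aElt = aElt * x)
    (h : x ∈ A3 ⊔ Subgroup.center Co0) : x = 1 ∨ x = negOne := by
  obtain ⟨i, c, hc, rfl⟩ := mem_sup_cases h
  have hcc := negOne_cases hc
  rw [show aElt ^ i * c * (aElt ^ i * c) = aElt ^ i * (c * aElt ^ i) * c by simp only [mul_assoc],
    ← Subgroup.mem_center_iff.1 hc (aElt ^ i), mul_assoc, mul_assoc, hcc, mul_one] at hx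
  rw [aElt_zpow_of_sq hx, one_mul]
  exact center_co0_cases hc

theorem epsOct_ne : epsOct ≠ 1 ∧ epsOct ≠ negOne := by
  refine ⟨fun h => ne_of_check ne_checks.1 ?_, fun h => ne_of_check ne_checks.2.1 ?_⟩
  · rw [wordVal_single, wordVal_nil]; exact h
  · rw [wordVal_single, wordVal_single]; exact h

theorem orderOf_zS : orderOf zS = 2 := by
  haveI : Fact (Nat.Prime 2) := ⟨Nat.prime_two⟩
  refine orderOf_eq_prime ?_ fun h => ?_
  · rw [zS, ← map_pow, ← map_pow, show eK ^ 2 = 1 from Subtype.ext (by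
      rw [Subgroup.coe_pow, pow_two]; exact epsOct_sq), map_one, map_one]
  · rcases involution_mod epsOct_sq (Subgroup.mem_centralizer_singleton_iff.1 eK.2.1)
      (prS_eq_one.1 h) with e | e
    · exact epsOct_ne.1 e
    · exact epsOct_ne.2 e

theorem tauC_surjective : Function.Surjective tauC := by
  rintro ⟨x, hx⟩
  obtain ⟨t, rfl⟩ := prS_surjective x
  set e : CA := Subgroup.inclusion K_le_CA eK
  have hc : prS (t * e * t⁻¹ * e⁻¹) = 1 := by
    rw [map_mul, map_mul, map_mul, map_inv, map_inv, show prS e = zS from rfl,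
      Subgroup.mem_centralizer_singleton_iff.1 hx]
    group
  obtain ⟨i, c, hc', hd⟩ := mem_sup_cases (prS_eq_one.1 hc)
  have hte : (t : Co0) * epsOct * (t : Co0)⁻¹ = aElt ^ i * c * epsOct := by
    rw [← hd]; simp [e, eK]
  have hea : Commute epsOct aElt := Subgroup.mem_centralizer_singleton_iff.1 eK.2.1
  have hcm : Commute epsOct (aElt ^ i * c) :=
    (hea.zpow_right i).mul_right (Subgroup.mem_center_iff.1 hc' _)
  have hsq : (aElt ^ i * c) * (aElt ^ i * c) = 1 := by
    have h1 : ((t : Co0) * epsOct * (t : Co0)⁻¹) * ((t : Co0) * epsOct * (t : Co0)⁻¹) = 1 := by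
      rw [show ((t : Co0) * epsOct * (t : Co0)⁻¹) * ((t : Co0) * epsOct * (t : Co0)⁻¹) =
        (t : Co0) * (epsOct * epsOct) * (t : Co0)⁻¹ by group, epsOct_sq]
      group
    rw [hte, hcm.mul_mul_mul_comm, epsOct_sq, mul_one] at h1
    exact h1
  have hta : Commute (aElt ^ i * c) aElt :=
    ((Commute.refl aElt).zpow_left i).mul_left (Subgroup.mem_center_iff.1 hc' aElt).symm
  rcases involution_mod hsq hta.eq (mul_mem (Subgroup.mem_sup_left ⟨i, rfl⟩) (Subgroup.mem_sup_right hc'))
    with r | r <;> rw [r] at hte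
  · rw [one_mul, mul_inv_eq_iff_eq_mul] at hte
    exact ⟨⟨t, mem_CA.1 t.2, Subgroup.mem_centralizer_singleton_iff.2 hte⟩, rfl⟩
  · exact (not_flip (by rw [hte, Subgroup.mem_center_iff.1 negOne_central])).elim

theorem tauC_ker {k : K} : tauC k = 1 ↔ (k : Co0) ∈ A3 ⊔ Subgroup.center Co0 :=
  ⟨fun h => prS_eq_one.1 (congrArg Subtype.val h), fun h => Subtype.ext (prS_eq_one.2 h)⟩

theorem dElt_tau (p : Fin 3 × Bool) : tauC (dElt p) = 1 := by
  obtain ⟨i, c, hc, e⟩ := dElt_split p
  rw [tauC_ker, e]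
  exact mul_mem (Subgroup.mem_sup_left ⟨i, rfl⟩) (Subgroup.mem_sup_right hc)

theorem tauC_ker_le : tauC.ker ≤ rep.ker := fun k hk => by
  obtain ⟨i, c, hc, e⟩ := mem_sup_cases (tauC_ker.1 hk)
  have hc' : c = 1 ∨ c = negOne := center_co0_cases hc
  have h2 : k = aK ^ i * ⟨c, by rcases hc' with rfl | rfl; exacts [one_mem K, mK.2]⟩ :=
    Subtype.ext (by rw [Subgroup.coe_mul, SubgroupClass.coe_zpow]; exact e)
  rw [h2]
  refine mul_mem (zpow_mem aK_ker i) ?_
  rcases hc' with rfl | rfl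
  · exact one_mem _
  · exact mK_ker

/-- The extraspecial subgroup. -/
noncomputable def QS : Subgroup CZ := qK.map tauC

theorem comap_QS : QS.comap tauC = rep.ker := by
  refine le_antisymm ?_ fun k hk => ?_
  · rw [QS, Subgroup.comap_map_eq]
    exact sup_le qK_ker tauC_ker_le
  · obtain ⟨g, p, e⟩ := ker_cases hk
    rw [Subgroup.mem_comap, show k = ⟨(g : Co0), Qa_le g.2⟩ * dElt p from Subtype.ext e, map_mul,
      dElt_tau, mul_one]
    exact ⟨_, g.2, rfl⟩

instance QS_normal : QS.Normal := by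
  have h : (QS.comap tauC).Normal := by rw [comap_QS]; infer_instance
  have := h.map tauC tauC_surjective
  rwa [Subgroup.map_comap_eq_self_of_surjective tauC_surjective] at this

/-- The map from the centralised part. -/
noncomputable def qMap : Qa →* QS :=
  (tauC.comp (Subgroup.inclusion Qa_le)).codRestrict _ fun g => ⟨_, g.2, rfl⟩

theorem qMap_bijective : Function.Bijective qMap := by
  constructor
  · refine (injective_iff_map_eq_one qMap).2 fun g hg => Subtype.ext ?_
    obtain ⟨i, c, hc, e⟩ := mem_sup_cases (tauC_ker.1 (congrArg Subtype.val hg))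
    exact qa_trivial g.2 hc e
  · rintro ⟨_, k, hk, rfl⟩
    exact ⟨⟨k.1, hk⟩, rfl⟩

theorem center_Qa (g : Qa) : g ∈ Subgroup.center Qa ↔ piQ g = 0 := by
  constructor
  · intro hg
    by_contra hne
    obtain ⟨v, hv⟩ : ∃ v, q6 (piQ g + v) ≠ q6 (piQ g) + q6 v := by
      revert hne
      generalize piQ g = u
      revert u
      decide +kernel
    obtain ⟨h, rfl⟩ := piQ_surjective v
    refine hv ?_
    have hc : (g : Co0) * h = (h : Co0) * g := (congrArg Subtype.val (Subgroup.mem_center_iff.1 hg h)).symm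
    have h1 := square_piQ (g * h)
    rw [piQ_mul, Subgroup.coe_mul, show (g : Co0) * h * ((g : Co0) * h) = (g : Co0) * ((h : Co0) * g) * h by
      simp only [mul_assoc], ← hc, show (g : Co0) * ((g : Co0) * h) * h = (g : Co0) * g * ((h : Co0) * h) by
      simp only [mul_assoc], square_piQ, square_piQ] at h1
    have h01 : ∀ x : ZMod 2, x = 0 ∨ x = 1 := by decide
    rcases h01 (q6 (piQ g)) with a | a <;> rcases h01 (q6 (piQ h)) with b | b <;>
      rcases h01 (q6 (piQ g + piQ h)) with c | c <;>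
      first
      | rw [a, b, c]; decide
      | exfalso
        simp only [a, b, c, if_true, one_ne_zero, if_false, mul_one, one_mul, zc_sq] at h1
        first | exact zc_ne h1 | exact zc_ne h1.symm
  · intro h0
    refine Subgroup.mem_center_iff.2 fun h => Subtype.ext ?_
    rcases piQ_eq (h0.trans piQ_one.symm) with e | e
    · rw [Subgroup.coe_mul, Subgroup.coe_mul, ← e]; simp
    · have hz : (g : Co0) = zc := by
        have e2 : (1 : Co0) = g * zc := e
        calc (g : Co0) = g * (zc * zc) := by rw [zc_sq, mul_one]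
          _ = zc := by rw [← mul_assoc, ← e2, one_mul]
      rw [Subgroup.coe_mul, Subgroup.coe_mul, hz]
      exact zc_central (octFix_le h.2.1)

theorem Qa_isExtraspecial : IsExtraspecial 2 Qa := by
  classical
  haveI : Finite Co0 := finite_co0
  haveI : Fact (Nat.Prime 2) := ⟨Nat.prime_two⟩
  have hp : IsPGroup 2 Qa := IsPGroup.of_card (n := 7) (by rw [card_Qa]; norm_num)
  set w : Qa := ⟨zc, zc_Qa⟩ with hw
  have hcen : ∀ z, z ∈ Subgroup.center Qa ↔ z = 1 ∨ z = w := by
    intro z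
    rw [center_Qa]
    refine ⟨fun h => ?_, ?_⟩
    · rcases piQ_eq (piQ_one.trans h.symm) with e | e
      · exact Or.inl (Subtype.ext e)
      · exact Or.inr (Subtype.ext (by rw [e]; exact one_mul zc))
    · rintro (rfl | rfl)
      · exact piQ_one
      · exact piQ_zc
  have hsq : ∀ a : Qa, a * a ∈ Subgroup.center Qa := fun a => by
    rw [center_Qa, piQ_mul]
    exact funext fun i => CharTwo.add_self_eq_zero _
  have hfr : frattini Qa ≤ Subgroup.center Qa := by
    rw [CfsgLib.QuadMap.frattini_eq_squares hp]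
    exact (Subgroup.closure_le _).2 (by rintro _ ⟨a, rfl⟩; exact hsq a)
  have hcm : commutator Qa ≤ frattini Qa := CfsgLib.PGroup.commutator_le_frattini hp
  have hge : Subgroup.center Qa ≤ commutator Qa := by
    have hnc : bQ 0 ∉ Subgroup.center Qa := by
      rw [center_Qa, piQ_bQ]; decide +kernel
    rw [Subgroup.mem_center_iff, not_forall] at hnc
    obtain ⟨b, hb⟩ := hnc
    intro z hz
    rcases (hcen z).1 hz with rfl | rfl
    · exact one_mem _
    · have hm : ⁅b, bQ 0⁆ ∈ commutator Qa :=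
        Subgroup.commutator_mem_commutator (Subgroup.mem_top _) (Subgroup.mem_top _)
      rcases (hcen _).1 (hfr (hcm hm)) with h | h
      · exact absurd (commutatorElement_eq_one_iff_mul_comm.1 h) hb
      · rwa [h] at hm
  refine ⟨⟨hp, le_antisymm hfr (hge.trans hcm), le_antisymm (hcm.trans hfr) hge⟩, ?_⟩
  rw [Nat.card_eq_two_iff' (⟨1, one_mem _⟩ : Subgroup.center Qa)]
  refine ⟨⟨w, (hcen w).2 (Or.inr rfl)⟩,
    fun e => zc_ne (congrArg (fun z : Subgroup.center Qa => (z.1 : Co0)) e), fun z hz => ?_⟩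
  rcases (hcen z.1).1 z.2 with h | h
  · exact absurd (Subtype.ext h) hz
  · exact Subtype.ext h

theorem QS_isExtraspecial : IsExtraspecial 2 QS := by
  haveI : Finite Co0 := finite_co0
  exact isExtraspecial_congr (MulEquiv.ofBijective qMap qMap_bijective) Qa_isExtraspecial

theorem card_QS : Nat.card QS = 2 ^ 7 := by
  rw [← Nat.card_eq_of_bijective qMap qMap_bijective, card_Qa]; norm_num

theorem quotient_equiv6 : Nonempty (CZ ⧸ QS ≃* Cfsg.Omega (ZMod 2) q6) := by
  let χ : K →* CZ ⧸ QS := (QuotientGroup.mk' QS).comp tauC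
  have hker : χ.ker = rep.ker := by
    rw [← MonoidHom.comap_ker, QuotientGroup.ker_mk', comap_QS]
  have hsurj : Function.Surjective χ := (QuotientGroup.mk'_surjective _).comp tauC_surjective
  exact ⟨(QuotientGroup.quotientKerEquivOfSurjective χ hsurj).symm.trans
    ((QuotientGroup.quotientMulEquivOfEq hker).trans
      ((QuotientGroup.quotientKerEquivRange rep).trans (MulEquiv.subgroupCongr range_rep)))⟩

theorem quotient_simple : IsSimpleGroup (CZ ⧸ QS) := by
  haveI := omega6_simple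
  exact quotient_equiv6.some.isSimpleGroup

theorem quotient_nonabelian : ¬ IsMulCommutative (CZ ⧸ QS) := fun h => by
  refine kGen_noncomm ?_
  have hc : QuotientGroup.mk' QS (tauC (kGen 0 * kGen 1)) = QuotientGroup.mk' QS (tauC (kGen 1 * kGen 0)) := by
    simp only [map_mul]
    exact h.is_comm.comm _ _
  have h2 : (kGen 0 * kGen 1)⁻¹ * (kGen 1 * kGen 0) ∈ QS.comap tauC := by
    rw [Subgroup.mem_comap, map_mul, map_inv]
    exact QuotientGroup.eq.1 hc
  rw [comap_QS, MonoidHom.mem_ker, map_mul, map_inv, inv_mul_eq_one, map_mul, map_mul] at h2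
  exact h2

theorem centralizer_QS : Subgroup.centralizer (QS : Set CZ) ≤ QS := by
  classical
  haveI := quotient_simple
  set N := Subgroup.centralizer (QS : Set CZ)
  haveI : N.Normal := Subgroup.normal_centralizer
  have hNm : (N.map (QuotientGroup.mk' QS)).Normal :=
    Subgroup.Normal.map inferInstance _ (QuotientGroup.mk'_surjective _)
  rcases hNm.eq_bot_or_eq_top with h | h
  · intro x hx
    exact (QuotientGroup.eq_one_iff x).1 (Subgroup.mem_bot.1 (h ▸ ⟨x, hx, rfl⟩))
  exfalso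
  obtain ⟨m, hm, hmT⟩ : QuotientGroup.mk' QS (tauC (kGen 0)) ∈ N.map (QuotientGroup.mk' QS) :=
    h ▸ Subgroup.mem_top _
  obtain ⟨k, rfl⟩ := tauC_surjective m
  have hk : (kGen 0)⁻¹ * k ∈ rep.ker := by
    rw [← comap_QS, Subgroup.mem_comap, map_mul, map_inv]
    exact QuotientGroup.eq.1 hmT.symm
  -- `k` fixes everything
  have hfix : ∀ g : Qa, qConj k g = g := fun g => by
    refine Function.Injective.eq_iff qMap_bijective.1 |>.1 (Subtype.ext ?_)
    have hq : (qMap g : CZ) ∈ QS := (qMap g).2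
    have hcomm := Subgroup.mem_centralizer_iff.1 hm _ hq
    show tauC (Subgroup.inclusion Qa_le (qConj k g)) = tauC (Subgroup.inclusion Qa_le g)
    rw [show Subgroup.inclusion Qa_le (qConj k g) = k * Subgroup.inclusion Qa_le g * k⁻¹ from
      Subtype.ext rfl, map_mul, map_mul, map_inv, mul_inv_eq_iff_eq_mul]
    exact hcomm.symm
  have hker : k ∈ rep.ker := smul_of_conj_trivial fun g => by rw [hfix g]
  have h0 : kGen 0 ∈ rep.ker := by
    have := mul_mem hker (inv_mem hk)
    simpa using this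
  exact kGen_noncomm (by rw [MonoidHom.mem_ker.1 h0]; simp)

theorem QS_gFitting : generalizedFittingSubgroup CZ = QS := by
  classical
  haveI : Fact (Nat.Prime 2) := ⟨Nat.prime_two⟩
  haveI := quotient_simple
  have hQp : IsPGroup 2 QS := QS_isExtraspecial.1.1
  have hle : QS ≤ pCore 2 CZ := CfsgLib.LocalP.le_pCore inferInstance hQp
  have hge : pCore 2 CZ ≤ QS := by
    rcases ((Cfsg.pCore_normal 2 CZ).map (QuotientGroup.mk' QS)
        (QuotientGroup.mk'_surjective _)).eq_bot_or_eq_top with h | h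
    · intro x hx
      exact (QuotientGroup.eq_one_iff x).1 (Subgroup.mem_bot.1 (h ▸ ⟨x, hx, rfl⟩))
    · exfalso
      have hp2 : IsPGroup 2 (CZ ⧸ QS) := by
        have := (CfsgLib.LocalP.isPGroup_pCore (G := CZ) (p := 2)).map (QuotientGroup.mk' QS)
        rw [h] at this
        exact this.of_equiv Subgroup.topEquiv
      obtain ⟨e⟩ := quotient_equiv6
      obtain ⟨j, hj⟩ := (hp2.of_equiv e).exists_card_eq
      have h3 : 3 ∣ Nat.card (Cfsg.Omega (ZMod 2) q6) := by
        rw [← range_rep, card_ker_and_range.2]; norm_num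
      rw [hj] at h3
      exact absurd (Nat.Prime.dvd_of_dvd_pow (by norm_num : Nat.Prime 3) h3) (by norm_num)
  have heq : pCore 2 CZ = QS := le_antisymm hge hle
  rw [← heq]
  exact CfsgLib.CharPClimb.generalizedFitting_eq_pCore (heq.symm ▸ centralizer_QS)

/-- An element moving the involution. -/
noncomputable def gC : CA :=
  ⟨wordVal gW, mem_CA.2 (Subgroup.mem_centralizer_singleton_iff.2 (comm_of_check move_checks.1).symm)⟩

theorem gC_conj : (gC : Co0) * epsOct * (gC : Co0)⁻¹ = (bQ 0 : Co0) := by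
  have h := comm_of_check move_checks.2.2.1
  rw [wordVal_single, wordVal_single, par_ok.1 0] at h
  exact mul_inv_eq_iff_eq_mul.2 h

theorem bQ_zero_ne : (bQ 0 : Co0) ≠ epsOct ∧ (bQ 0 : Co0) ≠ epsOct * negOne := by
  refine ⟨fun h => ne_of_check ne_checks.2.2.1 ?_, fun h => ne_of_check ne_checks.2.2.2.1 ?_⟩
  · rw [wordVal_single, wordVal_single, par_ok.1 0]; exact h
  · rw [wordVal_single, wordVal_cons, wordVal_single, par_ok.1 0]; exact h

theorem not_weakly_closed : ∃ g : SZ,
    (∃ hq : g * zS * g⁻¹ ∈ CZ, (⟨g * zS * g⁻¹, hq⟩ : CZ) ∈ QS) ∧ g * zS * g⁻¹ ≠ zS := by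
  set u : CA := Subgroup.inclusion K_le_CA (Subgroup.inclusion Qa_le (bQ 0))
  have hg : prS gC * zS * (prS gC)⁻¹ = prS u := by
    rw [zS, ← map_inv, ← map_mul, ← map_mul]
    exact congrArg prS (Subtype.ext gC_conj)
  refine ⟨prS gC, ⟨?_, ?_⟩, ?_⟩
  · rw [hg]; exact (tauC (Subgroup.inclusion Qa_le (bQ 0))).2
  · exact ⟨Subgroup.inclusion Qa_le (bQ 0), (bQ 0).2, Subtype.ext hg.symm⟩
  · rw [hg]
    intro e
    set r : K := Subgroup.inclusion Qa_le (bQ 0) * eK with hr
    have hmem : (r : Co0) ∈ A3 ⊔ Subgroup.center Co0 := by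
      rw [← tauC_ker]
      refine Subtype.ext ?_
      rw [tauC_coe, hr, map_mul, map_mul, e]
      show zS * zS = 1
      rw [← pow_two, ← orderOf_zS, pow_orderOf_eq_one]
    have hcomm : (bQ 0 : Co0) * epsOct = epsOct * (bQ 0 : Co0) :=
      Subgroup.mem_centralizer_singleton_iff.1 (Qa_le (bQ 0).2).2
    have hbb : (bQ 0 : Co0) * bQ 0 = 1 := by
      rw [square_piQ, piQ_bQ, if_pos (by decide +kernel)]
    have hrr : (r : Co0) * r = 1 := by
      show (bQ 0 : Co0) * epsOct * ((bQ 0 : Co0) * epsOct) = 1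
      conv_lhs => rw [show (bQ 0 : Co0) * epsOct * ((bQ 0 : Co0) * epsOct) =
        (bQ 0 : Co0) * (epsOct * (bQ 0 : Co0)) * epsOct by simp only [mul_assoc]]
      rw [← hcomm, ← mul_assoc, hbb, one_mul, epsOct_sq]
    have hrv : (r : Co0) = (bQ 0 : Co0) * epsOct := rfl
    rcases involution_mod hrr (Subgroup.mem_centralizer_singleton_iff.1 r.2.1) hmem with x | x
    · refine bQ_zero_ne.1 ?_
      rw [hrv, mul_eq_one_iff_eq_inv] at x
      rw [x]
      exact inv_eq_of_mul_eq_one_right epsOct_sq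
    · refine bQ_zero_ne.2 ?_
      rw [hrv] at x
      calc (bQ 0 : Co0) = (bQ 0 : Co0) * epsOct * epsOct := by rw [mul_assoc, epsOct_sq, mul_one]
        _ = epsOct * negOne := by rw [x, ← Subgroup.mem_center_iff.1 negOne_central]

theorem closure_ne : Subgroup.closure {x : CZ | IsConj zS (x : SZ)} ≠ QS := by
  intro h
  set xK : K := ⟨wordVal xW, Subgroup.mem_centralizer_singleton_iff.2 (comm_of_check move_checks.2.1).symm,
    wordVal_octCent _ (by simp [xW])⟩
  have hw := (sameWord_iff _ _).1 move_checks.2.2.2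
  simp only [wordVal_append, wordVal_single] at hw
  have hconj : IsConj zS (tauC xK : SZ) := by
    refine isConj_iff.2 ⟨prS (gC * (gC * gC)), ?_⟩
    rw [zS, ← map_inv, ← map_mul, ← map_mul, tauC_coe]
    refine congrArg prS (Subtype.ext ?_)
    show (wordVal gW * (wordVal gW * wordVal gW)) * epsOct * (wordVal gW * (wordVal gW * wordVal gW))⁻¹ =
      wordVal xW
    rw [mul_inv_eq_iff_eq_mul]
    simp only [mul_assoc]
    exact hw
  have hmem : tauC xK ∈ QS := h ▸ Subgroup.subset_closure hconj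
  have hk : xK ∈ rep.ker := by rw [← comap_QS]; exact hmem
  have h1 : piQ (qConj xK (bQ 2)) = piQ (bQ 2) := by
    rw [← smul_piQ]; exact (rep_eq_one_iff xK).1 hk _
  rcases piQ_eq h1.symm with e | e
  · refine ne_of_check ne_checks.2.2.2.2.1 ?_
    rw [wordVal_append, wordVal_append, wordVal_single, par_ok.1 2]
    exact mul_inv_eq_iff_eq_mul.1 e
  · refine ne_of_check ne_checks.2.2.2.2.2 ?_
    simp only [wordVal_append, wordVal_cons, wordVal_nil, mul_one]
    rw [par_ok.1 2]
    have hz : (Atom.f 16 0).val = zc := by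
      rw [← fixElt_e]
      exact congrArg fixElt (Prod.ext (by decide +kernel) rfl)
    rw [hz]
    exact mul_inv_eq_iff_eq_mul.1 e

/-- The trees of the two classes of nonzero vectors. -/
def classTree : Fin 2 → List (ℕ × ℕ × ℕ) :=
  ![[(3, 0, 1), (43, 1, 1), (2, 0, 3), (45, 1, 3), (62, 1, 43), (6, 1, 2), (58, 1, 45), (37, 0, 62), (55, 1, 62), (4, 1, 6), (15, 0, 58), (53, 1, 58), (27, 0, 37), (29, 1, 37), (59, 0, 55), (42, 0, 4), (8, 1, 15), (61, 1, 53), (21, 0, 29), (46, 1, 29), (12, 0, 59), (30, 1, 59), (39, 1, 8), (26, 1, 61), (9, 1, 21), (23, 1, 46)],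
    [(33, 0, 16), (32, 1, 16), (49, 0, 33), (31, 1, 33), (50, 0, 32), (52, 1, 32), (63, 1, 49), (20, 0, 31), (40, 1, 31), (18, 0, 50), (57, 0, 52), (22, 1, 52), (38, 0, 63), (28, 1, 63), (11, 0, 20), (34, 1, 20), (47, 0, 40), (19, 1, 40), (13, 0, 57), (24, 1, 57), (10, 0, 22), (36, 1, 22), (25, 0, 38), (48, 1, 38), (5, 1, 28), (51, 0, 34), (7, 0, 47), (60, 1, 47), (35, 0, 19), (14, 1, 13), (54, 1, 36), (44, 1, 25), (41, 0, 5), (17, 0, 51), (56, 0, 54)]]

/-- The representatives of the two classes. -/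
def classRep : Fin 2 → ℕ := ![1, 16]

theorem class_facts : (∀ c, classRep c < 64) ∧
    (∀ v : V6, v ≠ 0 → ∃ c, ∃ u ∈ reach6 [[0], [1]] (classTree c) [classRep c], vec6 u = v) ∧
    (∀ c, ∀ v : V6, ∃ a ∈ 0 :: reach6 [[0], [1]] (classTree c) [classRep c],
      ∃ b ∈ 0 :: reach6 [[0], [1]] (classTree c) [classRep c],
        ∃ d ∈ 0 :: reach6 [[0], [1]] (classTree c) [classRep c], v = vec6 a + vec6 b + vec6 d) ∧
    vec6 0 = 0 ∧ q6 (vec6 16) ≠ 0 := by
  decide +kernel

theorem irreducible (W : Subgroup CZ) (hWn : W.Normal) (hW : W ≤ QS) :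
    W = QS ∨ ∀ x ∈ W, (x : SZ) ∈ Subgroup.zpowers zS := by
  classical
  haveI := hWn
  let W' : Subgroup Qa := W.comap (tauC.comp (Subgroup.inclusion Qa_le))
  have hinv : ∀ (k : K), ∀ g ∈ W', qConj k g ∈ W' := fun k g hg => by
    show tauC (Subgroup.inclusion Qa_le (qConj k g)) ∈ W
    rw [show Subgroup.inclusion Qa_le (qConj k g) = k * Subgroup.inclusion Qa_le g * k⁻¹ from
      Subtype.ext rfl, map_mul, map_mul, map_inv]
    exact hWn.conj_mem _ hg _
  have hWx : ∀ x ∈ W, ∃ g ∈ W', tauC (Subgroup.inclusion Qa_le g) = x := fun x hx => by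
    obtain ⟨g, hg⟩ := qMap_bijective.2 ⟨x, hW hx⟩
    have e : tauC (Subgroup.inclusion Qa_le g) = x := congrArg Subtype.val hg
    exact ⟨g, by show tauC _ ∈ W; rw [e]; exact hx, e⟩
  by_cases h : ∃ g ∈ W', piQ g ≠ 0
  · left
    obtain ⟨g, hg, hg0⟩ := h
    let I : AddSubgroup V6 :=
      { carrier := {v | ∃ g ∈ W', piQ g = v}
        zero_mem' := ⟨1, one_mem _, piQ_one⟩
        add_mem' := by rintro _ _ ⟨g, hg, rfl⟩ ⟨h, hh, rfl⟩; exact ⟨g * h, mul_mem hg hh, piQ_mul g h⟩
        neg_mem' := by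
          rintro _ ⟨g, hg, rfl⟩
          exact ⟨g, hg, funext fun i => (CharTwo.neg_eq _).symm⟩ }
    obtain ⟨c, u, hu, hu'⟩ := class_facts.2.1 _ hg0
    have hspec := reach6_spec (H := ⊤) [[0], [1]] (fun _ _ => Subgroup.mem_top _) (classRep c)
      (class_facts.1 c) (classTree c) [classRep c] (fun x hx => by
        rw [List.mem_singleton] at hx
        subst hx
        exact ⟨class_facts.1 c, 1, one_mem _, one_smul _ _⟩)
    have hIk : ∀ (k : K), ∀ v ∈ I, k • v ∈ I := by
      rintro k _ ⟨g, hg, rfl⟩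
      exact ⟨qConj k g, hinv k g hg, (smul_piQ k g).symm⟩
    obtain ⟨-, k, -, hk⟩ := hspec u hu
    have hrep : vec6 (classRep c) ∈ I := by
      rw [show vec6 (classRep c) = k⁻¹ • vec6 u by rw [← hk, inv_smul_smul], hu']
      exact hIk _ _ ⟨g, hg, rfl⟩
    have hall : ∀ a ∈ 0 :: reach6 [[0], [1]] (classTree c) [classRep c], vec6 a ∈ I := by
      intro a ha
      rcases List.mem_cons.1 ha with rfl | ha
      · rw [class_facts.2.2.2.1]; exact zero_mem _
      · obtain ⟨-, k, -, hk⟩ := hspec a ha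
        rw [← hk]; exact hIk k _ hrep
    have htop : ∀ v, v ∈ I := fun v => by
      obtain ⟨a, ha, b, hb, d, hd, rfl⟩ := class_facts.2.2.1 c v
      exact add_mem (add_mem (hall a ha) (hall b hb)) (hall d hd)
    have hz : (⟨zc, zc_Qa⟩ : Qa) ∈ W' := by
      obtain ⟨y, hy, hye⟩ := htop (vec6 16)
      have h2 := square_piQ y
      rw [hye, if_neg class_facts.2.2.2.2] at h2
      rw [show (⟨zc, zc_Qa⟩ : Qa) = y * y from Subtype.ext h2.symm]
      exact mul_mem hy hy
    refine le_antisymm hW ?_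
    rintro _ ⟨k, hk, rfl⟩
    obtain ⟨y, hy, hye⟩ := htop (piQ ⟨k.1, hk⟩)
    have hmem : (⟨k.1, hk⟩ : Qa) ∈ W' := by
      rcases piQ_eq hye with e | e
      · rw [show (⟨k.1, hk⟩ : Qa) = y from Subtype.ext e]; exact hy
      · rw [show (⟨k.1, hk⟩ : Qa) = y * ⟨zc, zc_Qa⟩ from Subtype.ext e]; exact mul_mem hy hz
    exact hmem
  · right
    push Not at h
    intro x hx
    obtain ⟨g, hg, rfl⟩ := hWx x hx
    rcases piQ_eq (piQ_one.trans (h g hg).symm) with e | e
    · rw [show g = 1 from Subtype.ext e, map_one, map_one]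
      exact one_mem _
    · have : Subgroup.inclusion Qa_le g = eK * mK := Subtype.ext (by
        show (g : Co0) = epsOct * negOne
        rw [e, ← zc_eq]; exact one_mul zc)
      rw [this, map_mul, show tauC mK = 1 from by
        rw [tauC_ker]; exact Subgroup.mem_sup_right negOne_central, mul_one]
      exact Subgroup.mem_zpowers _

theorem SZ_simple : IsSimpleGroup SZ :=
  Cfsg.Agent.S5436.result zS orderOf_zS QS QS_gFitting QS_isExtraspecial 3 (by norm_num)
    (card_QS.trans (by norm_num)) not_weakly_closed quotient_simple quotient_nonabelian irreducible closure_ne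

theorem SZ_nonabelian : ¬ IsMulCommutative SZ := fun h => by
  obtain ⟨g, -, hg⟩ := not_weakly_closed
  refine hg ?_
  rw [h.is_comm.comm g zS, mul_inv_cancel_right]

theorem suz_section : ∃ A : Subgroup ↥Cfsg.Co0, Nat.card A = 3 ∧ ∃ (hn : ((A ⊔ Subgroup.center ↥Cfsg.Co0).subgroupOf (Subgroup.centralizer (A : Set ↥Cfsg.Co0))).Normal), ∃ (S : Type) (_ : Group S) (_ : Finite S), Nonempty (S ≃* ↥(Subgroup.centralizer (A : Set ↥Cfsg.Co0)) ⧸ (A ⊔ Subgroup.center ↥Cfsg.Co0).subgroupOf (Subgroup.centralizer (A : Set ↥Cfsg.Co0))) ∧ IsSimpleGroup S ∧ ¬ IsMulCommutative S ∧ ∃ z : S, orderOf z = 2 ∧ ∃ (Q : Subgroup (Subgroup.centralizer ({z} : Set S))) (_ : Q.Normal), Cfsg.generalizedFittingSubgroup (Subgroup.centralizer ({z} : Set S)) = Q ∧ Cfsg.IsExtraspecial 2 Q ∧ Nat.card Q = 2 ^ 7 ∧ Nonempty ((Subgroup.centralizer ({z} : Set S)) ⧸ Q ≃* Cfsg.Omega (ZMod 2) (Cfsg.quadFormMinus 2 (ZMod 2) 1 1)) ∧ ∃ g : S, (∃ hq : g * z * g⁻¹ ∈ Subgroup.centralizer ({z} : Set S), (⟨g * z * g⁻¹,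 hq⟩ : Subgroup.centralizer ({z} : Set S)) ∈ Q) ∧ g * z * g⁻¹ ≠ z :=
  ⟨A3, by rw [A3, Nat.card_zpowers, orderOf_aElt], NA_normal, SZ, inferInstance, finite_SZ,
    ⟨MulEquiv.refl _⟩, SZ_simple, SZ_nonabelian, zS, orderOf_zS, QS, QS_normal, QS_gFitting,
    QS_isExtraspecial, card_QS, quotient_equiv6, not_weakly_closed⟩

end CfsgLib.SuzSection
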